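import Mathlib

/-!
Difference operators on functions from a finite set to `ZMod p`, for a permutation whose `p`-th power
is trivial: the filtration by kernels of powers, the Leibniz rule, multiplicativity of the filtration,
and top coefficients of products and powers.
-/

set_option autoImplicit false

namespace Cfsg.Agent.Lib.Perm.TwoP

open Polynomial

variable {α : Type*} {p : ℕ} [hp : Fact p.Prime] (x : Equiv.Perm α)

/-- Composition with the permutation. -/
noncomputable def Xop : Module.End (ZMod p) (α → ZMod p) :=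
  LinearMap.funLeft (ZMod p) (ZMod p) x

/-- The difference operator. -/
noncomputable def Yop : Module.End (ZMod p) (α → ZMod p) := Xop x - 1

@[simp] theorem Xop_apply (f : α → ZMod p) (ω : α) : Xop x f ω = f (x ω) := rfl

@[simp] theorem Yop_apply (f : α → ZMod p) (ω : α) : Yop x f ω = f (x ω) - f ω := rfl

theorem Xop_pow_apply (i : ℕ) (f : α → ZMod p) (ω : α) : (Xop x ^ i) f ω = f ((x ^ i) ω) := by
  induction i generalizing f with
  | zero => simp
  | succ n ih =>
    rw [pow_succ, Module.End.mul_apply, ih, Xop_apply, pow_succ']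
    rfl

theorem X_Y_comm : Xop (p := p) x * Yop x = Yop x * Xop x := by
  simp only [Yop, mul_sub, sub_mul, mul_one, one_mul]

theorem Y_X_apply (n : ℕ) (f : α → ZMod p) : (Yop x ^ n) (Xop x f) = Xop x ((Yop x ^ n) f) := by
  have h : Commute (Xop (p := p) x) (Yop x ^ n) := (Commute.pow_right (X_Y_comm x) n)
  have h2 := congrArg (fun T : Module.End (ZMod p) (α → ZMod p) => T f) h.eq
  exact h2.symm

/-- Kernels of powers of the difference operator. -/
noncomputable def KK (m : ℕ) : Submodule (ZMod p) (α → ZMod p) := LinearMap.ker (Yop x ^ m)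

theorem mem_KK {m : ℕ} {f : α → ZMod p} : f ∈ KK x m ↔ (Yop x ^ m) f = 0 := LinearMap.mem_ker

theorem mem_KK_succ {m : ℕ} {f : α → ZMod p} : f ∈ KK x (m + 1) ↔ Yop x f ∈ KK x m := by
  rw [mem_KK, mem_KK, pow_succ, Module.End.mul_apply]

theorem mem_KK_zero {f : α → ZMod p} : f ∈ KK x 0 ↔ f = 0 := by
  rw [mem_KK, pow_zero, Module.End.one_apply]

theorem KK_mono {m n : ℕ} (h : m ≤ n) : KK (p := p) x m ≤ KK x n := by
  intro f hf
  rw [mem_KK] at hf ⊢
  obtain ⟨k, rfl⟩ := Nat.exists_eq_add_of_le h
  rw [add_comm, pow_add, Module.End.mul_apply, hf, map_zero]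

theorem X_mem_KK {m : ℕ} {f : α → ZMod p} (hf : f ∈ KK x m) : Xop x f ∈ KK x m := by
  rw [mem_KK] at hf ⊢
  rw [Y_X_apply, hf, map_zero]

theorem Y_mem_KK {m : ℕ} {f : α → ZMod p} (hf : f ∈ KK x m) : Yop x f ∈ KK x m := by
  rw [mem_KK] at hf ⊢
  rw [← Module.End.mul_apply, ← pow_succ, pow_succ', Module.End.mul_apply, hf, map_zero]

theorem X_eq_of_mem_KK_one {f : α → ZMod p} (hf : f ∈ KK x 1) : Xop x f = f := by
  rw [mem_KK, pow_one] at hf
  funext ω
  have h := congrFun hf ω
  rw [Yop_apply] at h
  exact sub_eq_zero.mp h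

theorem Y_mul (f g : α → ZMod p) : Yop x (f * g) = Yop x f * Xop x g + f * Yop x g := by
  funext ω
  simp only [Yop_apply, Pi.mul_apply, Pi.add_apply, Xop_apply]
  ring

theorem X_mul (f g : α → ZMod p) : Xop x (f * g) = Xop x f * Xop x g := rfl

/-- The filtration is multiplicative. -/
theorem KK_mul : ∀ (n a b : ℕ), a + b = n → ∀ f g : α → ZMod p, f ∈ KK x (a + 1) → g ∈ KK x (b + 1) →
    f * g ∈ KK x (a + b + 1) := by
  intro n
  induction n with
  | zero =>
    intro a b hab f g hf hg
    obtain ⟨rfl, rfl⟩ : a = 0 ∧ b = 0 := by omega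
    rw [mem_KK_succ, mem_KK_zero, Y_mul]
    have h1 := (mem_KK_zero x).mp ((mem_KK_succ x).mp hf)
    have h2 := (mem_KK_zero x).mp ((mem_KK_succ x).mp hg)
    rw [h1, h2]
    simp
  | succ n ih =>
    intro a b hab f g hf hg
    rw [mem_KK_succ, Y_mul]
    refine Submodule.add_mem _ ?_ ?_
    · cases a with
      | zero =>
        rw [(mem_KK_zero x).mp ((mem_KK_succ x).mp hf), zero_mul]
        exact Submodule.zero_mem _
      | succ a' =>
        have h := ih a' b (by omega) (Yop x f) (Xop x g) ((mem_KK_succ x).mp hf) (X_mem_KK x hg)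
        have h2 : a' + 1 + b = a' + b + 1 := by omega
        rw [h2]
        exact h
    · cases b with
      | zero =>
        rw [(mem_KK_zero x).mp ((mem_KK_succ x).mp hg), mul_zero]
        exact Submodule.zero_mem _
      | succ b' =>
        have h := ih a b' (by omega) f (Yop x g) hf ((mem_KK_succ x).mp hg)
        have h2 : a + (b' + 1) = a + b' + 1 := by omega
        rw [h2]
        exact h

theorem KK_mul' {a b : ℕ} {f g : α → ZMod p} (hf : f ∈ KK x (a + 1)) (hg : g ∈ KK x (b + 1)) :
    f * g ∈ KK x (a + b + 1) := KK_mul x _ a b rfl f g hf hg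

/-- The top coefficient of a product. -/
theorem top_mul : ∀ (n a b : ℕ), a + b = n → ∀ f g : α → ZMod p, f ∈ KK x (a + 1) → g ∈ KK x (b + 1) →
    (Yop x ^ (a + b)) (f * g) = ((Nat.choose (a + b) a : ℕ) : ZMod p) • ((Yop x ^ a) f * (Yop x ^ b) g) := by
  intro n
  induction n with
  | zero =>
    intro a b hab f g hf hg
    obtain ⟨rfl, rfl⟩ : a = 0 ∧ b = 0 := by omega
    simp
  | succ n ih =>
    intro a b hab f g hf hg
    have hstep : (Yop x ^ (a + b)) (f * g) =
        (Yop x ^ n) (Yop x f * Xop x g) + (Yop x ^ n) (f * Yop x g) := by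
      rw [hab, pow_succ, Module.End.mul_apply, Y_mul, map_add]
    rw [hstep]
    cases a with
    | zero =>
      have h1 := (mem_KK_zero x).mp ((mem_KK_succ x).mp hf)
      obtain ⟨b', rfl⟩ : ∃ b', b = b' + 1 := ⟨n, by omega⟩
      have hn : n = 0 + b' := by omega
      have h2 := ih 0 b' hn.symm f (Yop x g) hf ((mem_KK_succ x).mp hg)
      rw [h1, zero_mul, map_zero, zero_add, hn, h2]
      simp only [pow_zero, Nat.choose_zero_right, Nat.cast_one, one_smul, Module.End.one_apply, zero_add]
      rw [pow_succ, Module.End.mul_apply]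
    | succ a' =>
      cases b with
      | zero =>
        have h1 := (mem_KK_zero x).mp ((mem_KK_succ x).mp hg)
        have hn : n = a' + 0 := by omega
        have h2 := ih a' 0 hn.symm (Yop x f) (Xop x g) ((mem_KK_succ x).mp hf) (X_mem_KK x hg)
        rw [h1, mul_zero, map_zero, add_zero, hn, h2]
        have h3 : Xop x g = g := X_eq_of_mem_KK_one x (by simpa using hg)
        rw [h3]
        simp only [pow_zero, Module.End.one_apply, add_zero, Nat.choose_self, Nat.cast_one, one_smul]
        rw [pow_succ, Module.End.mul_apply]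
      | succ b' =>
        have hn1 : a' + (b' + 1) = n := by omega
        have hn2 : a' + 1 + b' = n := by omega
        have h2 := ih a' (b' + 1) hn1 (Yop x f) (Xop x g) ((mem_KK_succ x).mp hf) (X_mem_KK x hg)
        have h3 := ih (a' + 1) b' hn2 f (Yop x g) hf ((mem_KK_succ x).mp hg)
        have hXg : (Yop x ^ (b' + 1)) (Xop x g) = (Yop x ^ (b' + 1)) g := by
          rw [Y_X_apply]
          apply X_eq_of_mem_KK_one
          rw [mem_KK]
          rw [← Module.End.mul_apply, ← pow_add]
          rw [mem_KK] at hg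
          have h4 : 1 + (b' + 1) = b' + 1 + 1 := by omega
          rw [h4, hg]
        have e1 : (Yop x ^ n) (Yop x f * Xop x g) =
            ((Nat.choose n a' : ℕ) : ZMod p) • ((Yop x ^ (a' + 1)) f * (Yop x ^ (b' + 1)) g) := by
          have := h2
          rw [hn1] at this
          rw [this, hXg, ← Module.End.mul_apply, ← pow_succ]
        have e2 : (Yop x ^ n) (f * Yop x g) =
            ((Nat.choose n (a' + 1) : ℕ) : ZMod p) • ((Yop x ^ (a' + 1)) f * (Yop x ^ (b' + 1)) g) := by
          have := h3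
          rw [hn2] at this
          rw [this, ← Module.End.mul_apply (Yop x ^ b'), ← pow_succ]
        rw [e1, e2, ← add_smul, ← Nat.cast_add]
        have hab' : a' + 1 + (b' + 1) = n + 1 := by omega
        rw [hab', Nat.choose_succ_succ]

/-- A binomial coefficient below `p` is non-zero modulo `p`. -/
theorem choose_ne_zero {n k : ℕ} (hn : n < p) (hk : k ≤ n) : ((Nat.choose n k : ℕ) : ZMod p) ≠ 0 := by
  intro h
  rw [ZMod.natCast_eq_zero_iff] at h
  have h1 : p ∣ n.factorial := by
    rw [← Nat.choose_mul_factorial_mul_factorial hk]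
    exact Dvd.dvd.mul_right (Dvd.dvd.mul_right h _) _
  have h2 := (Nat.Prime.dvd_factorial hp.out).mp h1
  omega

theorem one_mem_KK : (1 : α → ZMod p) ∈ KK x 1 := by
  rw [mem_KK, pow_one]
  funext ω
  simp

/-- The top coefficient of a power. -/
theorem top_pow {d : ℕ} {h : α → ZMod p} (hh : h ∈ KK x (d + 1)) (m : ℕ) (hm : m * d < p) :
    h ^ m ∈ KK x (m * d + 1) ∧ ∃ γ : ZMod p, γ ≠ 0 ∧
      (Yop x ^ (m * d)) (h ^ m) = γ • ((Yop x ^ d) h) ^ m := by
  induction m with
  | zero =>
    refine ⟨?_, 1, one_ne_zero, ?_⟩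
    · simpa using one_mem_KK x
    · simp
  | succ n ih =>
    have hlt : n * d < p := by
      have : n * d ≤ (n + 1) * d := Nat.mul_le_mul_right _ (Nat.le_succ n)
      omega
    obtain ⟨h1, γ, hγ, h2⟩ := ih hlt
    have he : (n + 1) * d = n * d + d := by ring
    refine ⟨?_, ?_⟩
    · rw [he, pow_succ]
      exact KK_mul' x h1 hh
    · refine ⟨((Nat.choose (n * d + d) (n * d) : ℕ) : ZMod p) * γ, ?_, ?_⟩
      · exact mul_ne_zero (choose_ne_zero (by rw [← he]; exact hm) (Nat.le_add_right _ _)) hγ
      · rw [he, pow_succ, top_mul x _ (n * d) d rfl _ _ h1 hh, h2, smul_mul_assoc, smul_smul, pow_succ]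

section Char

theorem X_pow_of (hx : x ^ p = 1) : Xop (p := p) x ^ p = 1 := by
  ext f ω
  rw [Module.End.one_apply]
  simp only [Xop_pow_apply, hx]
  rfl

theorem end_charP [Nonempty α] : CharP (Module.End (ZMod p) (α → ZMod p)) p := by
  haveI : Nontrivial (α → ZMod p) := by
    obtain ⟨a⟩ := ‹Nonempty α›
    exact ⟨⟨0, 1, fun h => zero_ne_one (congrFun h a)⟩⟩
  exact charP_of_injective_algebraMap (algebraMap (ZMod p) _).injective p

theorem Y_pow_p [Nonempty α] (hx : x ^ p = 1) : Yop (p := p) x ^ p = 0 := by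
  haveI := end_charP (α := α) (p := p)
  have h : Commute (Xop (p := p) x) 1 := Commute.one_right _
  rw [Yop, sub_pow_char_of_commute p h, X_pow_of x hx, one_pow, sub_self]

theorem poly_identity : ((Polynomial.X : (ZMod p)[X]) - 1) ^ (p - 1) =
    ∑ i ∈ Finset.range p, (Polynomial.X : (ZMod p)[X]) ^ i := by
  have hne : (Polynomial.X : (ZMod p)[X]) - 1 ≠ 0 := by
    have := Polynomial.X_sub_C_ne_zero (1 : ZMod p)
    simpa using this
  apply mul_right_cancel₀ hne
  rw [← pow_succ, Nat.sub_add_cancel hp.out.one_lt.le, geom_sum_mul, sub_pow_char, one_pow]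

/-- The top power of the difference operator is the norm. -/
theorem Y_pow_top_eq : Yop (p := p) x ^ (p - 1) = ∑ i ∈ Finset.range p, Xop x ^ i := by
  have h := congrArg (Polynomial.aeval (Xop (p := p) x)) (poly_identity (p := p))
  simp only [map_pow, map_sub, Polynomial.aeval_X, map_one, map_sum] at h
  exact h

theorem Y_pow_top_apply (f : α → ZMod p) (ω : α) :
    (Yop x ^ (p - 1)) f ω = ∑ i ∈ Finset.range p, f ((x ^ i) ω) := by
  rw [Y_pow_top_eq, LinearMap.sum_apply, Finset.sum_apply]
  exact Finset.sum_congr rfl fun i _ => Xop_pow_apply x i f ω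

end Char

end Cfsg.Agent.Lib.Perm.TwoP
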