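import Mathlib
import Cfsg.Agent.Lib.Perm.TwoP.Ops

/-!
The setting for groups of degree `2p`: a fixed-point-free element of order `p`, its two orbits, the action on
functions, the kernel of the difference operator, and the two ways a function can produce a block.
-/

set_option autoImplicit false

namespace Cfsg.Agent.Lib.Perm.TwoP

open MulAction
open scoped Pointwise

variable {G : Type*} [Group G] {α : Type*} [Fintype α] [DecidableEq α] [MulAction G α] {p : ℕ}

/-- The action on functions. -/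
noncomputable def rho (p : ℕ) (g : G) : Module.End (ZMod p) (α → ZMod p) :=
  LinearMap.funLeft (ZMod p) (ZMod p) (fun ω => g⁻¹ • ω)

omit [Fintype α] [DecidableEq α] in
@[simp] theorem rho_apply (g : G) (f : α → ZMod p) (ω : α) : rho p g f ω = f (g⁻¹ • ω) := rfl

omit [Fintype α] [DecidableEq α] in
theorem rho_mul (g h : G) (f : α → ZMod p) : rho p (g * h) f = rho p g (rho p h f) := by
  funext ω
  simp [mul_smul]

omit [Fintype α] [DecidableEq α] in
theorem rho_one' (f : α → ZMod p) : rho p (1 : G) f = f := by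
  funext ω
  simp

omit [Fintype α] [DecidableEq α] in
theorem rho_inv_rho (g : G) (f : α → ZMod p) : rho p g⁻¹ (rho p g f) = f := by
  rw [← rho_mul, inv_mul_cancel, rho_one']

omit [Fintype α] [DecidableEq α] in
theorem rho_rho_inv (g : G) (f : α → ZMod p) : rho p g (rho p g⁻¹ f) = f := by
  rw [← rho_mul, mul_inv_cancel, rho_one']

omit [Fintype α] [DecidableEq α] in
theorem rho_pmul (g : G) (u v : α → ZMod p) : rho p g (u * v) = rho p g u * rho p g v := rfl

omit [Fintype α] [DecidableEq α] in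
theorem rho_ppow (g : G) (u : α → ZMod p) (m : ℕ) : rho p g (u ^ m) = rho p g u ^ m := rfl

omit [Fintype α] [DecidableEq α] in
theorem rho_const_one (g : G) : rho p g (1 : α → ZMod p) = 1 := rfl

/-- A group element without fixed points, of prime order `p`, acting on `2p` points. -/
structure Ctx (G α : Type*) [Group G] [Fintype α] [MulAction G α] (p : ℕ) where
  x : G
  a₀ : α
  b₀ : α
  prim : IsPreprimitive G α
  card : Fintype.card α = 2 * p
  odd : p ≠ 2
  pow : ∀ ω : α, (x ^ p) • ω = ω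
  free : ∀ ω : α, x • ω ≠ ω
  sep : ∀ i j : ℕ, (x ^ i) • a₀ ≠ (x ^ j) • b₀

namespace Ctx

variable [hp : Fact p.Prime] (C : Ctx G α p)

/-- The element as a permutation. -/
def σ : Equiv.Perm α := MulAction.toPerm C.x

omit [DecidableEq α] hp in
theorem σ_apply (ω : α) : C.σ ω = C.x • ω := rfl

omit hp [DecidableEq α] in
theorem σ_pow_apply (i : ℕ) (ω : α) : (C.σ ^ i) ω = (C.x ^ i) • ω := by
  induction i generalizing ω with
  | zero => simp
  | succ n ih =>
    rw [pow_succ, Equiv.Perm.mul_apply, ih, σ_apply, pow_succ, mul_smul]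

omit hp [DecidableEq α] in
theorem σ_pow_p : C.σ ^ p = 1 := by
  ext ω
  rw [σ_pow_apply, C.pow]
  rfl

omit hp [DecidableEq α] in
theorem iter_eq (i : ℕ) (ω : α) : C.σ^[i] ω = (C.x ^ i) • ω := by
  rw [Equiv.Perm.iterate_eq_pow, σ_pow_apply]

omit [DecidableEq α] in
theorem period (ω : α) : Function.minimalPeriod C.σ ω = p := by
  have h1 : Function.IsPeriodicPt C.σ p ω := by
    change C.σ^[p] ω = ω
    rw [iter_eq, C.pow]
  have h2 := h1.minimalPeriod_dvd
  rcases (Nat.dvd_prime hp.out).mp h2 with h | h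
  · exfalso
    have h3 := Function.isPeriodicPt_minimalPeriod C.σ ω
    rw [h] at h3
    exact C.free ω h3
  · exact h

omit [DecidableEq α] in
theorem pow_inj {i j : ℕ} (hi : i < p) (hj : j < p) {ω : α} (h : (C.x ^ i) • ω = (C.x ^ j) • ω) :
    i = j := by
  have hinj := Function.iterate_injOn_Iio_minimalPeriod (f := C.σ) (x := ω)
  rw [C.period] at hinj
  apply hinj hi hj
  simp only [iter_eq]
  exact h

omit hp [DecidableEq α] in
theorem pow_mod (i : ℕ) (ω : α) : (C.x ^ (i % p)) • ω = (C.x ^ i) • ω := by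
  have h : ∀ k : ℕ, (C.x ^ (p * k)) • ω = ω := by
    intro k
    induction k with
    | zero => simp
    | succ n ih =>
      rw [mul_add, mul_one, pow_add, mul_smul, C.pow, ih]
  conv_rhs => rw [← Nat.div_add_mod i p, add_comm, pow_add, mul_smul, h]

/-- The orbit of the base point. -/
def Δ : Finset α := (Finset.range p).image (fun i => (C.x ^ i) • C.a₀)

omit hp in
theorem mem_Δ {ω : α} : ω ∈ C.Δ ↔ ∃ i < p, (C.x ^ i) • C.a₀ = ω := by
  simp [Δ]

theorem mem_Δ' {ω : α} : ω ∈ C.Δ ↔ ∃ i : ℕ, (C.x ^ i) • C.a₀ = ω := by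
  rw [mem_Δ]
  constructor
  · rintro ⟨i, _, h⟩
    exact ⟨i, h⟩
  · rintro ⟨i, h⟩
    exact ⟨i % p, Nat.mod_lt _ hp.out.pos, by rw [pow_mod, h]⟩

theorem a₀_mem : C.a₀ ∈ C.Δ := C.mem_Δ'.mpr ⟨0, by simp⟩

theorem card_Δ : C.Δ.card = p := by
  rw [Δ, Finset.card_image_of_injOn, Finset.card_range]
  intro i hi j hj h
  exact C.pow_inj (Finset.mem_range.mp hi) (Finset.mem_range.mp hj) h

omit [DecidableEq α] in
theorem pow_inv_smul (ω : α) : (C.x ^ (p - 1)) • (C.x • ω) = ω := by
  rw [← mul_smul, ← pow_succ, Nat.sub_add_cancel hp.out.one_lt.le, C.pow]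

theorem smul_mem_Δ {ω : α} : C.x • ω ∈ C.Δ ↔ ω ∈ C.Δ := by
  rw [mem_Δ', mem_Δ']
  constructor
  · rintro ⟨i, h⟩
    refine ⟨p - 1 + i, ?_⟩
    rw [pow_add, mul_smul, h, pow_inv_smul]
  · rintro ⟨i, h⟩
    exact ⟨i + 1, by rw [pow_succ', mul_smul, h]⟩

theorem pow_smul_mem_Δ (i : ℕ) {ω : α} : (C.x ^ i) • ω ∈ C.Δ ↔ ω ∈ C.Δ := by
  induction i with
  | zero => simp
  | succ n ih => rw [pow_succ', mul_smul, smul_mem_Δ, ih]

theorem b₀_not : C.b₀ ∉ C.Δ := by
  intro h
  obtain ⟨i, hi⟩ := C.mem_Δ'.mp h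
  exact C.sep i 0 (by simpa using hi)

theorem compl {ω : α} (h : ω ∉ C.Δ) : ∃ i < p, (C.x ^ i) • C.b₀ = ω := by
  by_contra hne
  push Not at hne
  let D : Finset α := (Finset.range p).image (fun i => (C.x ^ i) • C.b₀)
  have hD : D.card = p := by
    rw [Finset.card_image_of_injOn, Finset.card_range]
    intro i hi j hj h
    exact C.pow_inj (Finset.mem_range.mp hi) (Finset.mem_range.mp hj) h
  have hdisj : Disjoint C.Δ D := by
    rw [Finset.disjoint_left]
    intro y hy hy2
    obtain ⟨i, _, hi⟩ := Finset.mem_image.mp hy2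
    rw [← hi, pow_smul_mem_Δ] at hy
    exact C.b₀_not hy
  have hc : (C.Δ ∪ D).card = 2 * p := by
    rw [Finset.card_union_of_disjoint hdisj, card_Δ, hD]
    ring
  have huniv : C.Δ ∪ D = Finset.univ := Finset.eq_univ_of_card _ (by rw [hc, C.card])
  have hmem : ω ∈ C.Δ ∪ D := by
    rw [huniv]
    exact Finset.mem_univ _
  rcases Finset.mem_union.mp hmem with h1 | h1
  · exact h h1
  · obtain ⟨i, hi, hi2⟩ := Finset.mem_image.mp h1
    exact hne i (Finset.mem_range.mp hi) hi2

/-- The sign function of the two orbits. -/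
def wv (R : Type*) [Ring R] : α → R := fun ω => if ω ∈ C.Δ then 1 else -1

/-- The sign function modulo `p`. -/
abbrev w : α → ZMod p := C.wv (ZMod p)

/-- The difference operator of the element. -/
noncomputable abbrev Y : Module.End (ZMod p) (α → ZMod p) := Yop (p := p) C.σ

/-- The filtration of the element. -/
noncomputable abbrev K (m : ℕ) : Submodule (ZMod p) (α → ZMod p) := KK (p := p) C.σ m

include C in
theorem two_ne : (2 : ZMod p) ≠ 0 := by
  intro h
  have h1 : ((2 : ℕ) : ZMod p) = 0 := by exact_mod_cast h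
  rw [ZMod.natCast_eq_zero_iff] at h1
  exact C.odd ((Nat.prime_dvd_prime_iff_eq hp.out Nat.prime_two).mp h1)

theorem wv_smul (R : Type*) [Ring R] (ω : α) : C.wv R (C.x • ω) = C.wv R ω := by
  simp only [wv, smul_mem_Δ]

theorem w_mem : C.w ∈ C.K 1 := by
  rw [mem_KK, pow_one]
  funext ω
  simp [Yop_apply, σ_apply, wv_smul]

theorem K_one_smul {f : α → ZMod p} (hf : f ∈ C.K 1) (ω : α) : f (C.x • ω) = f ω := by
  rw [mem_KK, pow_one] at hf
  have h := congrFun hf ω
  simp only [Yop_apply, σ_apply, Pi.zero_apply] at h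
  exact sub_eq_zero.mp h

theorem K_one_pow {f : α → ZMod p} (hf : f ∈ C.K 1) (i : ℕ) (ω : α) : f ((C.x ^ i) • ω) = f ω := by
  induction i with
  | zero => simp
  | succ n ih => rw [pow_succ', mul_smul, K_one_smul C hf, ih]

theorem K_one_eq {f : α → ZMod p} (hf : f ∈ C.K 1) :
    ∃ c c' : ZMod p, f = c • 1 + c' • C.w := by
  have h2 := C.two_ne
  refine ⟨(f C.a₀ + f C.b₀) / 2, (f C.a₀ - f C.b₀) / 2, ?_⟩
  funext ω
  by_cases h : ω ∈ C.Δ
  · have hw : C.w ω = 1 := if_pos h
    obtain ⟨i, _, rfl⟩ := C.mem_Δ.mp h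
    simp only [Pi.add_apply, Pi.smul_apply, hw, Pi.one_apply, smul_eq_mul, mul_one, K_one_pow C hf]
    field_simp
    ring
  · have hw : C.w ω = -1 := if_neg h
    obtain ⟨i, _, rfl⟩ := C.compl h
    simp only [Pi.add_apply, Pi.smul_apply, hw, Pi.one_apply, smul_eq_mul, mul_one, K_one_pow C hf]
    field_simp
    ring

theorem wa : C.w C.a₀ = 1 := if_pos C.a₀_mem

theorem wb : C.w C.b₀ = -1 := if_neg C.b₀_not

theorem indep {c c' : ZMod p} (h : c • (1 : α → ZMod p) + c' • C.w = 0) : c = 0 ∧ c' = 0 := by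
  have h1 := congrFun h C.a₀
  have h2 := congrFun h C.b₀
  simp only [Pi.add_apply, Pi.smul_apply, Pi.one_apply, smul_eq_mul, mul_one, wa, wb,
    Pi.zero_apply] at h1 h2
  have h3 : 2 * c = 0 := by linear_combination h1 + h2
  have h4 : c = 0 := by
    rcases mul_eq_zero.mp h3 with h5 | h5
    · exact absurd h5 C.two_ne
    · exact h5
  refine ⟨h4, ?_⟩
  rw [h4] at h1
  linear_combination h1

include C in
theorem one_ne : (1 : α → ZMod p) ≠ 0 := by
  intro h
  have h1 := congrFun h C.a₀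
  exact one_ne_zero h1

theorem w_ne : C.w ≠ 0 := by
  intro h
  have h1 := congrFun h C.a₀
  rw [wa] at h1
  exact one_ne_zero h1

theorem Y_pow_p' : C.Y ^ p = 0 := by
  haveI : Nonempty α := ⟨C.a₀⟩
  exact Y_pow_p C.σ C.σ_pow_p

theorem K_p : C.K p = ⊤ := by
  rw [eq_top_iff]
  intro f _
  rw [mem_KK, Y_pow_p']
  rfl

theorem top_mem (f : α → ZMod p) : (C.Y ^ (p - 1)) f ∈ C.K 1 := by
  rw [mem_KK, pow_one, ← Module.End.mul_apply, ← pow_succ', Nat.sub_add_cancel hp.out.one_lt.le,
    Y_pow_p']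
  rfl

/-- A function whose difference is the constant function. -/
theorem exists_ell : ∃ ℓ : α → ZMod p, C.Y ℓ = 1 := by
  have h2 := C.two_ne
  let f₀ : α → ZMod p := Pi.single C.a₀ 1 + Pi.single C.b₀ 1
  have hp1 := hp.out.one_lt
  have hp2 : 2 ≤ p := by omega
  have hne : ∀ i j : ℕ, (C.x ^ i) • C.a₀ ≠ (C.x ^ j) • C.b₀ := C.sep
  have hga : (C.Y ^ (p - 1)) f₀ C.a₀ = 1 := by
    rw [Y_pow_top_apply, Finset.sum_eq_single 0]
    · have h0 : C.b₀ ≠ C.a₀ := by
        intro h
        exact C.sep 0 0 (by simp [h])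
      simp [f₀, Pi.single_apply, h0.symm]
    · intro i hi hi0
      have hi' := Finset.mem_range.mp hi
      simp only [σ_pow_apply, f₀, Pi.add_apply, Pi.single_apply]
      rw [if_neg, if_neg, add_zero]
      · intro h
        have h3 := hne i 0
        rw [pow_zero, one_smul] at h3
        exact h3 h
      · intro h
        apply hi0
        exact C.pow_inj hi' hp.out.pos (by rw [h, pow_zero, one_smul])
    · intro h
      exact absurd (Finset.mem_range.mpr hp.out.pos) h
  have hgb : (C.Y ^ (p - 1)) f₀ C.b₀ = 1 := by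
    rw [Y_pow_top_apply, Finset.sum_eq_single 0]
    · have h0 : C.b₀ ≠ C.a₀ := by
        intro h
        exact C.sep 0 0 (by simp [h])
      simp [f₀, Pi.single_apply, h0]
    · intro i hi hi0
      have hi' := Finset.mem_range.mp hi
      simp only [σ_pow_apply, f₀, Pi.add_apply, Pi.single_apply]
      rw [if_neg, if_neg, add_zero]
      · intro h
        apply hi0
        exact C.pow_inj hi' hp.out.pos (by rw [h, pow_zero, one_smul])
      · intro h
        have h3 := hne 0 i
        rw [pow_zero, one_smul] at h3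
        exact h3 h.symm
    · intro h
      exact absurd (Finset.mem_range.mpr hp.out.pos) h
  obtain ⟨c, c', hcc⟩ := C.K_one_eq (C.top_mem f₀)
  have h1 := congrFun hcc C.a₀
  have h3 := congrFun hcc C.b₀
  rw [hga] at h1
  rw [hgb] at h3
  simp only [Pi.add_apply, Pi.smul_apply, Pi.one_apply, smul_eq_mul, mul_one, wa, wb] at h1 h3
  have h4 : 2 * c' = 0 := by linear_combination h3 - h1
  have h5 : c' = 0 := by
    rcases mul_eq_zero.mp h4 with h6 | h6
    · exact absurd h6 h2
    · exact h6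
  have h6 : c = 1 := by
    rw [h5] at h1
    linear_combination -h1
  refine ⟨(C.Y ^ (p - 2)) f₀, ?_⟩
  have h7 : C.Y ((C.Y ^ (p - 2)) f₀) = (C.Y ^ (p - 1)) f₀ := by
    rw [← Module.End.mul_apply, ← pow_succ']
    congr 2
    omega
  rw [h7, hcc, h5, h6]
  simp

end Ctx

omit [Fintype α] [DecidableEq α] in
theorem isBlock_fiber {β : Type*} (t : α → β)
    (ht : ∀ (g : G) (ω ω' : α), t ω = t ω' → t (g • ω) = t (g • ω')) (b : β) :
    IsBlock G {ω | t ω = b} := by
  rw [isBlock_iff_smul_eq_or_disjoint]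
  intro g
  by_cases hd : Disjoint (g • {ω | t ω = b}) {ω | t ω = b}
  · exact Or.inr hd
  · left
    rw [Set.not_disjoint_iff] at hd
    obtain ⟨y, ⟨ω₁, h1, rfl⟩, h2⟩ := hd
    have h1' : t ω₁ = b := h1
    have h2' : t (g • ω₁) = b := h2
    ext ω
    rw [Set.mem_smul_set]
    constructor
    · rintro ⟨ω₂, h3, rfl⟩
      have h3' : t ω₂ = b := h3
      change t (g • ω₂) = b
      rw [ht g ω₂ ω₁ (h3'.trans h1'.symm), h2']
    · intro h3
      have h3' : t ω = b := h3
      refine ⟨g⁻¹ • ω, ?_, smul_inv_smul g ω⟩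
      change t (g⁻¹ • ω) = b
      rw [ht g⁻¹ ω (g • ω₁) (h3'.trans h2'.symm), inv_smul_smul, h1']

namespace Ctx

variable [hp : Fact p.Prime] (C : Ctx G α p)

/-- A function with constant difference, affine under the group, would produce a non-trivial block. -/
theorem no_affine {t : α → ZMod p} {c : ZMod p} (hc : c ≠ 0) (ht : C.Y t = c • 1)
    (haff : ∀ g : G, ∃ c₁ c₂ : ZMod p, ∀ ω, t (g • ω) = c₁ * t ω + c₂) : False := by
  have step : ∀ ω, t (C.x • ω) = t ω + c := by
    intro ω
    have h := congrFun ht ω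
    simp only [Yop_apply, σ_apply, Pi.smul_apply, Pi.one_apply, smul_eq_mul, mul_one] at h
    linear_combination h
  have stepi : ∀ (i : ℕ) (ω : α), t ((C.x ^ i) • ω) = t ω + (i : ZMod p) * c := by
    intro i ω
    induction i with
    | zero => simp
    | succ n ih =>
      rw [pow_succ', mul_smul, step, ih]
      push_cast
      ring
  let B : Set α := {ω | t ω = t C.a₀}
  have hB : IsBlock G B := isBlock_fiber t (by
    intro g ω ω' h
    obtain ⟨c₁, c₂, hg⟩ := haff g
    rw [hg, hg, h]) _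
  haveI := hp
  haveI : NeZero p := ⟨hp.out.ne_zero⟩
  rcases C.prim.isTrivialBlock_of_isBlock hB with h | h
  · let i : ℕ := ((t C.a₀ - t C.b₀) / c).val
    have h1 : (C.x ^ i) • C.b₀ ∈ B := by
      change t ((C.x ^ i) • C.b₀) = t C.a₀
      rw [stepi]
      simp only [i, ZMod.natCast_val, ZMod.cast_id', id_eq]
      field_simp
      ring
    have h2 : C.a₀ ∈ B := rfl
    have h3 := h h1 h2
    exact C.sep 0 i (by rw [pow_zero, one_smul, h3])
  · have h1 : C.x • C.a₀ ∈ B := by
      rw [h]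
      exact Set.mem_univ _
    have h2 : t (C.x • C.a₀) = t C.a₀ := h1
    rw [step] at h2
    exact hc (by linear_combination h2)

/-- If all translates of the sign function have low degree then the orbit is a block. -/
theorem no_sign_block (h : ∀ g : G, rho p g C.w ∈ C.K (p - 1)) : False := by
  classical
  have hP : ∀ g : G, (∀ ω ∈ C.Δ, g⁻¹ • ω ∉ C.Δ) ∨ (∀ ω ∈ C.Δ, g⁻¹ • ω ∈ C.Δ) := by
    intro g
    have h1 := congrFun ((mem_KK _).mp (h g)) C.a₀
    rw [Y_pow_top_apply] at h1
    have h2 : ∀ i ∈ Finset.range p, rho p g C.w ((C.σ ^ i) C.a₀) =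
        (2 : ZMod p) * (if g⁻¹ • (C.x ^ i) • C.a₀ ∈ C.Δ then 1 else 0) - 1 := by
      intro i _
      rw [rho_apply, σ_pow_apply]
      simp only [w, wv]
      split_ifs <;> ring
    rw [Finset.sum_congr rfl h2, Finset.sum_sub_distrib, ← Finset.mul_sum, Finset.sum_boole] at h1
    simp only [Finset.sum_const, Finset.card_range, nsmul_eq_mul, CharP.cast_eq_zero, mul_one,
      sub_zero, Pi.zero_apply] at h1
    have h3 : (((Finset.range p).filter fun i => g⁻¹ • (C.x ^ i) • C.a₀ ∈ C.Δ).card : ZMod p) = 0 := by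
      rcases mul_eq_zero.mp h1 with h4 | h4
      · exact absurd h4 C.two_ne
      · exact h4
    rw [ZMod.natCast_eq_zero_iff] at h3
    have h4 : ((Finset.range p).filter fun i => g⁻¹ • (C.x ^ i) • C.a₀ ∈ C.Δ).card ≤ p := by
      simpa using Finset.card_filter_le (Finset.range p) fun i => g⁻¹ • (C.x ^ i) • C.a₀ ∈ C.Δ
    rcases Nat.eq_zero_or_pos ((Finset.range p).filter fun i => g⁻¹ • (C.x ^ i) • C.a₀ ∈ C.Δ).card
      with h5 | h5
    · left
      intro ω hω
      obtain ⟨i, hi, rfl⟩ := C.mem_Δ.mp hω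
      rw [Finset.card_eq_zero, Finset.filter_eq_empty_iff] at h5
      exact h5 (Finset.mem_range.mpr hi)
    · right
      have h6 := Nat.le_of_dvd h5 h3
      have h7 : ((Finset.range p).filter fun i => g⁻¹ • (C.x ^ i) • C.a₀ ∈ C.Δ).card =
          (Finset.range p).card := by
        rw [Finset.card_range]
        omega
      rw [Finset.card_filter_eq_iff] at h7
      intro ω hω
      obtain ⟨i, hi, rfl⟩ := C.mem_Δ.mp hω
      exact h7 i (Finset.mem_range.mpr hi)
  have hB : IsBlock G (C.Δ : Set α) := by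
    rw [isBlock_iff_smul_eq_or_disjoint]
    intro g
    rcases hP g⁻¹ with h1 | h1
    · right
      rw [Set.disjoint_left]
      rintro _ ⟨ω, hω, rfl⟩ hω2
      have := h1 ω hω
      rw [inv_inv] at this
      exact this hω2
    · left
      have h1' : ∀ ω ∈ C.Δ, g • ω ∈ C.Δ := by
        intro ω hω
        have := h1 ω hω
        rwa [inv_inv] at this
      have h2 : ∀ ω ∈ C.Δ, g⁻¹ • ω ∈ C.Δ := by
        rcases hP g with h3 | h3
        · exfalso
          have h4 := h3 _ (h1' _ C.a₀_mem)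
          rw [inv_smul_smul] at h4
          exact h4 C.a₀_mem
        · exact h3
      ext ω
      rw [Set.mem_smul_set]
      constructor
      · rintro ⟨ω₂, h3, rfl⟩
        exact h1' _ h3
      · intro h3
        exact ⟨g⁻¹ • ω, h2 _ h3, smul_inv_smul g ω⟩
  rcases C.prim.isTrivialBlock_of_isBlock hB with h1 | h1
  · have h2 : C.x • C.a₀ ∈ (C.Δ : Set α) := C.smul_mem_Δ.mpr C.a₀_mem
    have h3 : C.a₀ ∈ (C.Δ : Set α) := C.a₀_mem
    exact C.free _ (h1 h2 h3)
  · have h2 : C.b₀ ∈ (C.Δ : Set α) := by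
      rw [h1]
      exact Set.mem_univ _
    exact C.b₀_not h2

end Ctx

end Cfsg.Agent.Lib.Perm.TwoP
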