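import Mathlib
import Cfsg.Agent.Lib.Perm.TwoP.Ctx

/-!
The idempotent splitting of the function space for groups of degree `2p`: both summands are uniserial of
dimension `p` for the difference operator, and invariant subspaces of low degree produce blocks.
-/

set_option autoImplicit false

namespace Cfsg.Agent.Lib.Perm.TwoP

open MulAction Module

variable {G : Type*} [Group G] {α : Type*} [Fintype α] [DecidableEq α] [MulAction G α] {p : ℕ}

/-- Invariant subspaces. -/
def GInv (G : Type*) [Group G] [MulAction G α] (S : Submodule (ZMod p) (α → ZMod p)) : Prop :=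
  ∀ (g : G), ∀ f ∈ S, rho p g f ∈ S

/-- Operators commuting with the action. -/
def Comm (G : Type*) [Group G] [MulAction G α] (A : Module.End (ZMod p) (α → ZMod p)) : Prop :=
  ∀ (g : G) (f : α → ZMod p), A (rho p g f) = rho p g (A f)

omit [Fintype α] [DecidableEq α] in
theorem GInv.inf {S S' : Submodule (ZMod p) (α → ZMod p)} (h : GInv G S) (h' : GInv G S') :
    GInv G (S ⊓ S') := fun g f hf => ⟨h g f hf.1, h' g f hf.2⟩

omit [Fintype α] [DecidableEq α] in
theorem Comm.ginv_ker {A : Module.End (ZMod p) (α → ZMod p)} (h : Comm G A) :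
    GInv G (LinearMap.ker A) := by
  intro g f hf
  rw [LinearMap.mem_ker] at hf ⊢
  rw [h, hf, map_zero]

omit [Fintype α] [DecidableEq α] in
theorem Comm.ginv_map {A : Module.End (ZMod p) (α → ZMod p)} (h : Comm G A)
    {S : Submodule (ZMod p) (α → ZMod p)} (hS : GInv G S) : GInv G (S.map A) := by
  rintro g _ ⟨f, hf, rfl⟩
  exact ⟨rho p g f, hS g f hf, h g f⟩

omit [Fintype α] [DecidableEq α] in
theorem Comm.sub {A B : Module.End (ZMod p) (α → ZMod p)} (h : Comm G A) (h' : Comm G B) :
    Comm G (A - B) := by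
  intro g f
  simp [h g f, h' g f]

omit [Fintype α] [DecidableEq α] in
theorem Comm.mul {A B : Module.End (ZMod p) (α → ZMod p)} (h : Comm G A) (h' : Comm G B) :
    Comm G (A * B) := by
  intro g f
  simp [h g, h' g f]

omit [Fintype α] [DecidableEq α] in
theorem Comm.smul {A : Module.End (ZMod p) (α → ZMod p)} (h : Comm G A) (c : ZMod p) :
    Comm G (c • A) := by
  intro g f
  simp [h g f]

omit [Fintype α] [DecidableEq α] in
theorem Comm.one : Comm G (1 : Module.End (ZMod p) (α → ZMod p)) := fun _ _ => rfl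

omit [Fintype α] [DecidableEq α] in
theorem Comm.pow {A : Module.End (ZMod p) (α → ZMod p)} (h : Comm G A) (n : ℕ) : Comm G (A ^ n) := by
  induction n with
  | zero => exact Comm.one
  | succ n ih =>
    rw [pow_succ]
    exact ih.mul h

/-- Rank and nullity on a subspace. -/
theorem finrank_map_add_inf_ker {V W : Type*} [AddCommGroup V] [Module (ZMod p) V] [AddCommGroup W]
    [Module (ZMod p) W] [hp : Fact p.Prime] [FiniteDimensional (ZMod p) V]
    (A : V →ₗ[ZMod p] W) (S : Submodule (ZMod p) V) :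
    finrank (ZMod p) (S.map A) + finrank (ZMod p) (S ⊓ LinearMap.ker A : Submodule (ZMod p) V) =
      finrank (ZMod p) S := by
  have h := LinearMap.finrank_range_add_finrank_ker (A.domRestrict S)
  rw [LinearMap.range_domRestrict, LinearMap.ker_domRestrict] at h
  rw [← h]
  congr 1
  rw [← Submodule.finrank_map_subtype_eq S]
  rw [Submodule.map_comap_subtype]

namespace Ctx

variable [hp : Fact p.Prime] (C : Ctx G α p)

theorem Y_eq (f : α → ZMod p) : C.Y f = rho p C.x⁻¹ f - f := by
  funext ω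
  simp [Yop_apply, σ_apply]

theorem ginv_Y {S : Submodule (ZMod p) (α → ZMod p)} (hS : GInv G S) {f : α → ZMod p} (hf : f ∈ S) :
    C.Y f ∈ S := by
  rw [Y_eq]
  exact S.sub_mem (hS _ f hf) hf

theorem ginv_Ypow {S : Submodule (ZMod p) (α → ZMod p)} (hS : GInv G S) {f : α → ZMod p}
    (hf : f ∈ S) (n : ℕ) : (C.Y ^ n) f ∈ S := by
  induction n with
  | zero => simpa using hf
  | succ n ih =>
    rw [pow_succ', Module.End.mul_apply]
    exact C.ginv_Y hS ih

theorem comm_Y {A : Module.End (ZMod p) (α → ZMod p)} (hA : Comm G A) (f : α → ZMod p) :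
    A (C.Y f) = C.Y (A f) := by
  rw [Y_eq, map_sub, hA, Y_eq]

theorem comm_Ypow {A : Module.End (ZMod p) (α → ZMod p)} (hA : Comm G A) (n : ℕ) (f : α → ZMod p) :
    A ((C.Y ^ n) f) = (C.Y ^ n) (A f) := by
  induction n generalizing f with
  | zero => simp
  | succ n ih =>
    rw [pow_succ, Module.End.mul_apply, Module.End.mul_apply, ih, comm_Y C hA]

theorem comm_K {A : Module.End (ZMod p) (α → ZMod p)} (hA : Comm G A) {m : ℕ} {f : α → ZMod p}
    (hf : f ∈ C.K m) : A f ∈ C.K m := by
  rw [mem_KK] at hf ⊢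
  rw [← comm_Ypow C hA, hf, map_zero]

/-- A non-zero function has a non-zero image in the kernel of the difference operator. -/
theorem exists_socle {s : α → ZMod p} (hs : s ≠ 0) :
    ∃ n : ℕ, (C.Y ^ n) s ≠ 0 ∧ (C.Y ^ n) s ∈ C.K 1 := by
  classical
  have hex : ∃ n : ℕ, (C.Y ^ n) s = 0 := ⟨p, by rw [Y_pow_p']; rfl⟩
  have hfind := Nat.find_spec hex
  have hmin := fun m => Nat.find_min hex (m := m)
  set n := Nat.find hex with hn
  have hn0 : n ≠ 0 := by
    intro h0
    rw [h0, pow_zero] at hfind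
    exact hs hfind
  obtain ⟨m, hm⟩ := Nat.exists_eq_succ_of_ne_zero hn0
  refine ⟨m, hmin m (by omega), ?_⟩
  rw [mem_KK, pow_one, ← Module.End.mul_apply, ← pow_succ']
  rw [hm] at hfind
  exact hfind

/-- Chain of dimensions. -/
theorem finrank_inf_K_le {T : Submodule (ZMod p) (α → ZMod p)} (hT : ∀ f ∈ T, C.Y f ∈ T)
    (h1 : finrank (ZMod p) (T ⊓ C.K 1 : Submodule (ZMod p) (α → ZMod p)) ≤ 1) (m : ℕ) :
    finrank (ZMod p) (T ⊓ C.K m : Submodule (ZMod p) (α → ZMod p)) ≤ m := by
  induction m with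
  | zero =>
    have h0 : (T ⊓ C.K 0 : Submodule (ZMod p) (α → ZMod p)) = ⊥ := by
      rw [eq_bot_iff]
      rintro f ⟨_, hf⟩
      exact (mem_KK_zero _).mp hf
    rw [h0]
    simp
  | succ m ih =>
    have h := finrank_map_add_inf_ker (C.Y) (T ⊓ C.K (m + 1))
    have h2 : finrank (ZMod p) ((T ⊓ C.K (m + 1)).map C.Y : Submodule (ZMod p) (α → ZMod p)) ≤ m := by
      refine le_trans (Submodule.finrank_mono ?_) ih
      rintro _ ⟨f, hf, rfl⟩
      exact ⟨hT f hf.1, (mem_KK_succ _).mp hf.2⟩
    have h3 : finrank (ZMod p) ((T ⊓ C.K (m + 1)) ⊓ LinearMap.ker C.Y :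
        Submodule (ZMod p) (α → ZMod p)) ≤ 1 := by
      refine le_trans (Submodule.finrank_mono ?_) h1
      rintro f ⟨hf, hf2⟩
      refine ⟨hf.1, ?_⟩
      change f ∈ C.K 1
      rw [mem_KK, pow_one]
      exact hf2
    omega

/-- An invariant subspace of the difference operator is killed by a power up to its dimension. -/
theorem nil_le {S : Submodule (ZMod p) (α → ZMod p)} (hS : ∀ f ∈ S, C.Y f ∈ S) :
    S ≤ C.K (finrank (ZMod p) S) := by
  intro f hf
  let φ : Module.End (ZMod p) S := C.Y.restrict hS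
  have hφ : ∀ (n : ℕ) (v : S), (((φ ^ n) v : S) : α → ZMod p) = (C.Y ^ n) (v : α → ZMod p) := by
    intro n v
    induction n generalizing v with
    | zero => simp
    | succ n ih =>
      rw [pow_succ, Module.End.mul_apply, ih, pow_succ, Module.End.mul_apply]
      rfl
  have h := Module.End.ker_pow_le_ker_pow_finrank φ p
  have h1 : (⟨f, hf⟩ : S) ∈ LinearMap.ker (φ ^ p) := by
    rw [LinearMap.mem_ker]
    apply Subtype.ext
    rw [hφ, Y_pow_p']
    rfl
  have h2 := h h1
  rw [LinearMap.mem_ker] at h2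
  have h3 := congrArg Subtype.val h2
  rw [hφ] at h3
  rw [mem_KK]
  exact h3

/-- The idempotent splitting the function space. -/
structure Idem (e : Module.End (ZMod p) (α → ZMod p)) : Prop where
  idem : ∀ f, e (e f) = e f
  one : e 1 = 1
  sign : e C.w = 0
  comm : Comm G e

variable {C} {e : Module.End (ZMod p) (α → ZMod p)} (H : C.Idem e)

include H

theorem fix_K_one {f : α → ZMod p} (hf : e f = f) (hk : f ∈ C.K 1) : ∃ c : ZMod p, f = c • 1 := by
  obtain ⟨c, c', hcc⟩ := C.K_one_eq hk
  refine ⟨c, ?_⟩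
  rw [← hf, hcc, map_add, map_smul, map_smul, H.one, H.sign, smul_zero, add_zero]

theorem ker_K_one {f : α → ZMod p} (hf : e f = 0) (hk : f ∈ C.K 1) : ∃ c : ZMod p, f = c • C.w := by
  obtain ⟨c, c', hcc⟩ := C.K_one_eq hk
  have h1 : c • (1 : α → ZMod p) = 0 := by
    have h2 := hf
    rw [hcc, map_add, map_smul, map_smul, H.one, H.sign, smul_zero, add_zero] at h2
    exact h2
  refine ⟨c', ?_⟩
  rw [hcc, h1, zero_add]

theorem range_Y : ∀ f ∈ LinearMap.range e, C.Y f ∈ LinearMap.range e := by
  rintro _ ⟨f, rfl⟩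
  exact ⟨C.Y f, C.comm_Y H.comm f⟩

theorem ker_Y : ∀ f ∈ LinearMap.ker e, C.Y f ∈ LinearMap.ker e := by
  intro f hf
  rw [LinearMap.mem_ker] at hf ⊢
  rw [C.comm_Y H.comm, hf, map_zero]

theorem mem_range {f : α → ZMod p} : f ∈ LinearMap.range e ↔ e f = f := by
  constructor
  · rintro ⟨g, rfl⟩
    exact H.idem g
  · intro h
    exact ⟨f, h⟩

theorem finrank_range_one :
    finrank (ZMod p) (LinearMap.range e ⊓ C.K 1 : Submodule (ZMod p) (α → ZMod p)) ≤ 1 := by
  have h : (LinearMap.range e ⊓ C.K 1 : Submodule (ZMod p) (α → ZMod p)) ≤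
      Submodule.span (ZMod p) {(1 : α → ZMod p)} := by
    rintro f ⟨hf, hk⟩
    obtain ⟨c, hc⟩ := fix_K_one H ((mem_range H).mp hf) hk
    rw [hc]
    exact Submodule.smul_mem _ _ (Submodule.mem_span_singleton_self _)
  exact le_trans (Submodule.finrank_mono h) (finrank_span_singleton C.one_ne).le

theorem finrank_ker_one :
    finrank (ZMod p) (LinearMap.ker e ⊓ C.K 1 : Submodule (ZMod p) (α → ZMod p)) ≤ 1 := by
  have h : (LinearMap.ker e ⊓ C.K 1 : Submodule (ZMod p) (α → ZMod p)) ≤
      Submodule.span (ZMod p) {C.w} := by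
    rintro f ⟨hf, hk⟩
    obtain ⟨c, hc⟩ := ker_K_one H (LinearMap.mem_ker.mp hf) hk
    rw [hc]
    exact Submodule.smul_mem _ _ (Submodule.mem_span_singleton_self _)
  exact le_trans (Submodule.finrank_mono h) (finrank_span_singleton C.w_ne).le

theorem finrank_range_K (m : ℕ) :
    finrank (ZMod p) (LinearMap.range e ⊓ C.K m : Submodule (ZMod p) (α → ZMod p)) ≤ m :=
  C.finrank_inf_K_le (range_Y H) (finrank_range_one H) m

theorem finrank_ker_K (m : ℕ) :
    finrank (ZMod p) (LinearMap.ker e ⊓ C.K m : Submodule (ZMod p) (α → ZMod p)) ≤ m :=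
  C.finrank_inf_K_le (ker_Y H) (finrank_ker_one H) m

theorem finrank_range : finrank (ZMod p) (LinearMap.range e) = p := by
  have h1 := finrank_range_K H p
  have h2 := finrank_ker_K H p
  rw [C.K_p, inf_top_eq] at h1 h2
  have h3 := LinearMap.finrank_range_add_finrank_ker e
  rw [Module.finrank_fintype_fun_eq_card, C.card] at h3
  omega

theorem finrank_ker : finrank (ZMod p) (LinearMap.ker e) = p := by
  have h1 := finrank_range_K H p
  have h2 := finrank_ker_K H p
  rw [C.K_p, inf_top_eq] at h1 h2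
  have h3 := LinearMap.finrank_range_add_finrank_ker e
  rw [Module.finrank_fintype_fun_eq_card, C.card] at h3
  omega

/-- An invariant subspace of the second summand containing the sign function is everything. -/
theorem ker_eq_of_sign {S : Submodule (ZMod p) (α → ZMod p)} (hS : S ≤ LinearMap.ker e)
    (hG : GInv G S) (hw : C.w ∈ S) : S = LinearMap.ker e := by
  have hn : ¬ S ≤ C.K (p - 1) := by
    intro hle
    exact C.no_sign_block fun g => hle (hG g _ hw)
  apply Submodule.eq_of_le_of_finrank_le hS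
  rw [finrank_ker H]
  by_contra hlt
  push Not at hlt
  apply hn
  exact le_trans (C.nil_le fun f hf => C.ginv_Y hG hf) (KK_mono _ (by omega))

/-- An invariant subspace of the second summand of low degree vanishes. -/
theorem sign_bot {S : Submodule (ZMod p) (α → ZMod p)} (hS : S ≤ LinearMap.ker e)
    (hG : GInv G S) (hK : S ≤ C.K (p - 1)) : S = ⊥ := by
  by_contra hne
  obtain ⟨s, hs, hs0⟩ := (Submodule.ne_bot_iff S).mp hne
  obtain ⟨n, hn, hn2⟩ := C.exists_socle hs0
  have hmem := C.ginv_Ypow hG hs n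
  obtain ⟨c, hc⟩ := ker_K_one H (LinearMap.mem_ker.mp (hS hmem)) hn2
  have hc0 : c ≠ 0 := by
    rintro rfl
    rw [zero_smul] at hc
    exact hn hc
  have hw : C.w ∈ S := by
    have h1 : C.w = c⁻¹ • (C.Y ^ n) s := by
      rw [hc, smul_smul, inv_mul_cancel₀ hc0, one_smul]
    rw [h1]
    exact S.smul_mem _ hmem
  exact C.no_sign_block fun g => hK (hG g _ hw)

omit H in
/-- Elements of the span are moved by the group within the span. -/
theorem ginv_span {A : Set (α → ZMod p)} (hA : ∀ (g : G), ∀ f ∈ A, rho p g f ∈ A) :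
    GInv G (Submodule.span (ZMod p) A) := by
  intro g f hf
  induction hf using Submodule.span_induction with
  | mem x h => exact Submodule.subset_span (hA g x h)
  | zero => rw [map_zero]; exact Submodule.zero_mem _
  | add x y _ _ hx hy => rw [map_add]; exact Submodule.add_mem _ hx hy
  | smul a x _ hx => rw [map_smul]; exact Submodule.smul_mem _ _ hx

end Ctx

end Cfsg.Agent.Lib.Perm.TwoP
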