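import Mathlib
import Cfsg.Agent.Lib.Perm.TwoP.Split

/-!
Invariant subspaces of the first summand of low dimension cannot exist, and every operator commuting with
the group and having the two eigenvectors lies in a three-dimensional space.
-/

set_option autoImplicit false

namespace Cfsg.Agent.Lib.Perm.TwoP

open MulAction Module

variable {G : Type*} [Group G] {α : Type*} [Fintype α] [DecidableEq α] [MulAction G α] {p : ℕ}

namespace Ctx

variable [hp : Fact p.Prime] {C : Ctx G α p} {e : Module.End (ZMod p) (α → ZMod p)} (H : C.Idem e)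

include H

/-- Products of functions in an invariant subspace of low degree remain in the first summand. -/
theorem prod_fix {S : Submodule (ZMod p) (α → ZMod p)} (hG : GInv G S) {j : ℕ}
    (hK : S ≤ C.K (j + 1)) (hj : 2 * (j + 1) ≤ p) : ∀ u ∈ S, ∀ v ∈ S, e (u * v) = u * v := by
  let A : Set (α → ZMod p) := {f | ∃ u ∈ S, ∃ v ∈ S, f = u * v - e (u * v)}
  let P := Submodule.span (ZMod p) A
  have hPG : GInv G P := ginv_span (by
    rintro g _ ⟨u, hu, v, hv, rfl⟩
    refine ⟨rho p g u, hG g u hu, rho p g v, hG g v hv, ?_⟩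
    rw [map_sub, ← rho_pmul, H.comm])
  have hPe : P ≤ LinearMap.ker e := Submodule.span_le.mpr (by
    rintro _ ⟨u, hu, v, hv, rfl⟩
    change e (u * v - e (u * v)) = 0
    rw [map_sub, H.idem, sub_self])
  have hPK : P ≤ C.K (p - 1) := Submodule.span_le.mpr (by
    rintro _ ⟨u, hu, v, hv, rfl⟩
    have h1 : u * v ∈ C.K (j + j + 1) := KK_mul' _ (hK hu) (hK hv)
    have h2 : e (u * v) ∈ C.K (j + j + 1) := C.comm_K H.comm h1
    exact KK_mono _ (by omega) (Submodule.sub_mem _ h1 h2))
  have hbot := sign_bot H hPe hPG hPK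
  intro u hu v hv
  have h1 : u * v - e (u * v) ∈ P := Submodule.subset_span ⟨u, hu, v, hv, rfl⟩
  rw [hbot] at h1
  have h2 := (Submodule.mem_bot _).mp h1
  exact (sub_eq_zero.mp h2).symm

/-- The first summand has no invariant subspace of dimension `j` with `2 ≤ j`, `2 j ≤ p`. -/
theorem no_invariant {S : Submodule (ZMod p) (α → ZMod p)} (hS : S ≤ LinearMap.range e)
    (hG : GInv G S) (hj2 : 2 ≤ finrank (ZMod p) S) (hjp : 2 * finrank (ZMod p) S ≤ p) : False := by
  obtain ⟨j, hj⟩ : ∃ j, j = finrank (ZMod p) S := ⟨_, rfl⟩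
  rw [← hj] at hj2 hjp
  obtain ⟨j', hj'⟩ : ∃ j', j = j' + 1 := ⟨j - 1, by omega⟩
  have hSK : S ≤ C.K j := by
    rw [hj]
    exact C.nil_le (fun f hf => C.ginv_Y hG hf)
  have hSeq : S = LinearMap.range e ⊓ C.K j := by
    apply Submodule.eq_of_le_of_finrank_le (le_inf hS hSK)
    rw [← hj]
    exact finrank_range_K H j
  have hprod := prod_fix H hG (j := j') (by rw [← hj']; exact hSK) (by omega)
  obtain ⟨ℓ, hℓ⟩ := C.exists_ell
  let L := e ℓ
  have hYL : C.Y L = 1 := by
    change C.Y (e ℓ) = 1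
    rw [← C.comm_Y H.comm, hℓ, H.one]
  have heL : e L = L := H.idem ℓ
  have hLK : L ∈ C.K 2 := by
    rw [mem_KK_succ, hYL]
    exact one_mem_KK _
  have hLS : L ∈ S := by
    rw [hSeq]
    exact ⟨⟨ℓ, rfl⟩, KK_mono _ hj2 hLK⟩
  have hpow : ∀ n, n + 2 ≤ j → L ^ (n + 1) ∈ S ∧ L ^ (n + 1) ∈ C.K (n + 2) := by
    intro n
    induction n with
    | zero =>
      intro _
      simpa using ⟨hLS, hLK⟩
    | succ n ih =>
      intro hn
      obtain ⟨h1, h2⟩ := ih (by omega)
      have h3 : L ^ (n + 1 + 1) = L ^ (n + 1) * L := pow_succ _ _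
      have h4 : e (L ^ (n + 1 + 1)) = L ^ (n + 1 + 1) := by
        rw [h3]
        exact hprod _ h1 _ hLS
      have h5 : L ^ (n + 1 + 1) ∈ C.K (n + 1 + 2) := by
        rw [h3]
        exact KK_mul' _ (a := n + 1) (b := 1) h2 hLK
      refine ⟨?_, h5⟩
      rw [hSeq]
      exact ⟨(mem_range H).mpr h4, KK_mono _ (by omega) h5⟩
  have hg2 : ∀ g : G, rho p g L ∈ C.K 2 := by
    intro g
    by_contra hnot
    have hhS : rho p g L ∈ S := hG g L hLS
    have hh0 : rho p g L ≠ 0 := by
      intro h0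
      have h1 := rho_inv_rho g L
      rw [h0, map_zero] at h1
      rw [← h1, map_zero] at hYL
      exact C.one_ne hYL.symm
    have hex : ∃ d, rho p g L ∈ C.K (d + 1) := ⟨j', by rw [← hj']; exact hSK hhS⟩
    classical
    have hfind := Nat.find_spec hex
    have hmin := fun m => Nat.find_min hex (m := m)
    have hdj := Nat.find_min' hex (m := j') (by rw [← hj']; exact hSK hhS)
    obtain ⟨d, hd⟩ : ∃ d, d = Nat.find hex := ⟨_, rfl⟩
    rw [← hd] at hfind hdj
    have hmin' : ∀ m, m < d → rho p g L ∉ C.K (m + 1) := by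
      intro m hm
      apply hmin
      rw [← hd]
      exact hm
    have hd2 : 2 ≤ d := by
      by_contra hlt
      apply hnot
      exact KK_mono _ (by omega) hfind
    have htop : (C.Y ^ d) (rho p g L) ≠ 0 := by
      intro h0
      apply hmin' (d - 1) (by omega)
      have h1 : d - 1 + 1 = d := by omega
      rw [h1, mem_KK]
      exact h0
    have htopK : (C.Y ^ d) (rho p g L) ∈ C.K 1 := by
      rw [mem_KK, pow_one, ← Module.End.mul_apply, ← pow_succ']
      exact (mem_KK _).mp hfind
    have htopfix : e ((C.Y ^ d) (rho p g L)) = (C.Y ^ d) (rho p g L) := by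
      rw [C.comm_Ypow H.comm, (mem_range H).mp (hS hhS)]
    obtain ⟨c₀, hc₀⟩ := fix_K_one H htopfix htopK
    have hc₀0 : c₀ ≠ 0 := by
      rintro rfl
      rw [zero_smul] at hc₀
      exact htop hc₀
    obtain ⟨m, hm⟩ : ∃ m, m = (j - 1) / d + 1 := ⟨_, rfl⟩
    have hdpos : 0 < d := by omega
    have hm1 : j ≤ m * d := by
      have h1 := Nat.div_add_mod (j - 1) d
      have h2 := Nat.mod_lt (j - 1) hdpos
      rw [hm, add_mul, one_mul]
      have h3 : d * ((j - 1) / d) = (j - 1) / d * d := mul_comm _ _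
      omega
    have hm2 : m * d ≤ j - 1 + d := by
      rw [hm, add_mul, one_mul]
      have h1 := Nat.div_mul_le_self (j - 1) d
      omega
    have hm3 : m + 1 ≤ j := by
      have h1 : (j - 1) / d ≤ (j - 1) / 2 := Nat.div_le_div_left hd2 (by norm_num)
      omega
    have hm0 : m ≠ 0 := by
      rw [hm]
      exact Nat.succ_ne_zero _
    have hmS : rho p g L ^ m ∈ S := by
      have h1 := (hpow (m - 1) (by omega)).1
      have h2 : m - 1 + 1 = m := by omega
      rw [h2] at h1
      have h3 := hG g _ h1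
      rwa [rho_ppow] at h3
    have hlt : m * d < p := by omega
    obtain ⟨-, γ, hγ, htp⟩ := top_pow C.σ hfind m hlt
    have hzero : (C.Y ^ (m * d)) (rho p g L ^ m) = 0 := (mem_KK _).mp (KK_mono _ hm1 (hSK hmS))
    rw [htp, hc₀] at hzero
    have h1 := congrFun hzero C.a₀
    simp only [Pi.smul_apply, Pi.pow_apply, Pi.one_apply, smul_eq_mul, mul_one, Pi.zero_apply] at h1
    rcases mul_eq_zero.mp h1 with h2 | h2
    · exact hγ h2
    · exact hc₀0 (pow_eq_zero_iff hm0 |>.mp h2)
  refine C.no_affine (t := L) (c := 1) one_ne_zero (by rw [hYL, one_smul]) (fun g => ?_)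
  have h2 := hg2 g⁻¹
  have hfix : e (rho p g⁻¹ L) = rho p g⁻¹ L := by rw [H.comm, heL]
  have hYh : C.Y (rho p g⁻¹ L) ∈ C.K 1 := (mem_KK_succ _).mp h2
  have hfixY : e (C.Y (rho p g⁻¹ L)) = C.Y (rho p g⁻¹ L) := by rw [C.comm_Y H.comm, hfix]
  obtain ⟨c, hc⟩ := fix_K_one H hfixY hYh
  have hK : rho p g⁻¹ L - c • L ∈ C.K 1 := by
    rw [mem_KK, pow_one, map_sub, map_smul, hc, hYL, sub_self]
  have hfix2 : e (rho p g⁻¹ L - c • L) = rho p g⁻¹ L - c • L := by
    rw [map_sub, map_smul, hfix, heL]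
  obtain ⟨c', hc'⟩ := fix_K_one H hfix2 hK
  refine ⟨c, c', fun ω => ?_⟩
  have h3 := congrFun hc' ω
  simp only [Pi.sub_apply, rho_apply, inv_inv, Pi.smul_apply, smul_eq_mul, Pi.one_apply,
    mul_one] at h3
  linear_combination h3

variable {A : Module.End (ZMod p) (α → ZMod p)} (hA : Comm G A) {k a : ZMod p}
  (h1 : A 1 = k • 1) (hw : A C.w = a • C.w)

include hA h1

/-- An operator with the two eigenvectors preserves the first summand. -/
theorem pres_range (f : α → ZMod p) : e (A (e f)) = A (e f) := by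
  let B : Module.End (ZMod p) (α → ZMod p) := A * e - e * (A * e)
  have hB : Comm G B := (hA.mul H.comm).sub (H.comm.mul (hA.mul H.comm))
  have happ : ∀ f, B f = A (e f) - e (A (e f)) := fun f => rfl
  have hS : LinearMap.range B ≤ LinearMap.ker e := by
    rintro _ ⟨f, rfl⟩
    rw [LinearMap.mem_ker, happ, map_sub, H.idem, sub_self]
  have hG : GInv G (LinearMap.range B) := by
    rintro g _ ⟨f, rfl⟩
    exact ⟨rho p g f, hB g f⟩
  have hK : LinearMap.range B ≤ C.K (p - 1) := by
    rintro _ ⟨f, rfl⟩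
    rw [mem_KK, ← C.comm_Ypow hB, happ, C.comm_Ypow H.comm]
    have h2 : e ((C.Y ^ (p - 1)) (e f)) = (C.Y ^ (p - 1)) (e f) := by
      rw [C.comm_Ypow H.comm, H.idem]
    obtain ⟨c, hc⟩ := fix_K_one H h2 (C.top_mem _)
    rw [hc, map_smul, h1, map_smul, map_smul, H.one, sub_self]
  have hbot := sign_bot H hS hG hK
  have h3 : B f ∈ LinearMap.range B := ⟨f, rfl⟩
  rw [hbot] at h3
  have h4 := (Submodule.mem_bot _).mp h3
  rw [happ] at h4
  exact (sub_eq_zero.mp h4).symm

omit h1 in
include hw in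
/-- An operator with the two eigenvectors preserves the second summand. -/
theorem pres_ker {f : α → ZMod p} (hf : e f = 0) : e (A f) = 0 := by
  have hc : Comm G (e * A) := H.comm.mul hA
  have h2 := ker_eq_of_sign H (S := LinearMap.ker e ⊓ LinearMap.ker (e * A)) inf_le_left
    ((H.comm.ginv_ker).inf hc.ginv_ker) ⟨H.sign, by
      change C.w ∈ LinearMap.ker (e * A)
      rw [LinearMap.mem_ker, Module.End.mul_apply, hw, map_smul, H.sign, smul_zero]⟩
  have h3 : f ∈ LinearMap.ker e := hf
  rw [← h2] at h3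
  exact h3.2

omit h1 in
include hw in
/-- An operator with the two eigenvectors is scalar on the second summand. -/
theorem scalar_ker {f : α → ZMod p} (hf : e f = 0) : A f = a • f := by
  let B : Module.End (ZMod p) (α → ZMod p) := A - a • 1
  have hB : Comm G B := hA.sub (Comm.one.smul a)
  have happ : ∀ f, B f = A f - a • f := fun f => rfl
  have hS : (LinearMap.ker e).map B ≤ LinearMap.ker e := by
    rintro _ ⟨f, hf, rfl⟩
    have hf' : e f = 0 := hf
    rw [LinearMap.mem_ker, happ, map_sub, pres_ker H hA hw hf', map_smul, hf', smul_zero, sub_zero]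
  have hG : GInv G ((LinearMap.ker e).map B) := hB.ginv_map H.comm.ginv_ker
  have hK : (LinearMap.ker e).map B ≤ C.K (p - 1) := by
    rintro _ ⟨f, hf, rfl⟩
    have hf' : e f = 0 := hf
    rw [mem_KK, ← C.comm_Ypow hB]
    have h2 : e ((C.Y ^ (p - 1)) f) = 0 := by
      rw [C.comm_Ypow H.comm, hf', map_zero]
    obtain ⟨c, hc⟩ := ker_K_one H h2 (C.top_mem _)
    rw [hc, map_smul, happ, hw, sub_self, smul_zero]
  have hbot := sign_bot H hS hG hK
  have h3 : B f ∈ (LinearMap.ker e).map B := ⟨f, hf, rfl⟩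
  rw [hbot] at h3
  have h4 := (Submodule.mem_bot _).mp h3
  rw [happ] at h4
  exact sub_eq_zero.mp h4

/-- The defect of the operator on the first summand has values in the constants. -/
theorem defect_const {f : α → ZMod p} (hf : e f = f) : ∃ c : ZMod p, A f - k • f = c • 1 := by
  by_contra hcon
  push Not at hcon
  let D : Module.End (ZMod p) (α → ZMod p) := A - k • 1
  have hD : Comm G D := hA.sub (Comm.one.smul k)
  have happ : ∀ f, D f = A f - k • f := fun f => rfl
  have hDfix : ∀ f, e f = f → e (D f) = D f := by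
    intro f hf
    rw [happ, map_sub, map_smul, hf]
    have h2 := pres_range H hA h1 f
    rw [hf] at h2
    rw [h2]
  have hD1 : D 1 = 0 := by
    rw [happ, h1, sub_self]
  let I : Submodule (ZMod p) (α → ZMod p) := (LinearMap.range e).map D
  let N : Submodule (ZMod p) (α → ZMod p) := LinearMap.range e ⊓ LinearMap.ker D
  have hIe : I ≤ LinearMap.range e := by
    rintro _ ⟨f, hf, rfl⟩
    exact (mem_range H).mpr (hDfix f ((mem_range H).mp hf))
  have hNe : N ≤ LinearMap.range e := inf_le_left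
  have hIG : GInv G I := hD.ginv_map (by
    rintro g _ ⟨f, rfl⟩
    exact ⟨rho p g f, H.comm g f⟩)
  have hRG : GInv G (LinearMap.range e) := by
    rintro g _ ⟨f, rfl⟩
    exact ⟨rho p g f, H.comm g f⟩
  have hNG : GInv G N := hRG.inf hD.ginv_ker
  have hrank : finrank (ZMod p) I + finrank (ZMod p) N = p := by
    have h2 := finrank_map_add_inf_ker D (LinearMap.range e)
    rw [finrank_range H] at h2
    exact h2
  have hIK : I ≤ C.K (finrank (ZMod p) I) := C.nil_le fun f hf => C.ginv_Y hIG hf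
  have hNK : N ≤ C.K (finrank (ZMod p) N) := C.nil_le fun f hf => C.ginv_Y hNG hf
  have hDf : D f ∈ I := ⟨f, (mem_range H).mpr hf, rfl⟩
  have hu2 : 2 ≤ finrank (ZMod p) I := by
    by_contra hlt
    have h2 : D f ∈ C.K 1 := KK_mono _ (by omega) (hIK hDf)
    obtain ⟨c, hc⟩ := fix_K_one H (hDfix f hf) h2
    exact hcon c hc
  have h1N : (1 : α → ZMod p) ∈ N := ⟨(mem_range H).mpr H.one, hD1⟩
  have hv1 : 1 ≤ finrank (ZMod p) N := by
    have h3 : N ≠ ⊥ := by
      intro h4
      rw [h4] at h1N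
      exact C.one_ne ((Submodule.mem_bot _).mp h1N)
    exact Nat.one_le_iff_ne_zero.mpr (fun h4 => h3 (Submodule.finrank_eq_zero.mp h4))
  by_cases hv : finrank (ZMod p) N = 1
  · -- kernel is the constants: a function with constant difference arises
    have hNc : ∀ f, e f = f → D f = 0 → ∃ c : ZMod p, f = c • 1 := by
      intro f hf1 hf2
      have h3 : f ∈ N := ⟨(mem_range H).mpr hf1, hf2⟩
      have h4 := hNK h3
      rw [hv] at h4
      exact fix_K_one H hf1 h4
    have hne0 : D f ≠ 0 := by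
      intro h3
      exact hcon 0 (by rw [zero_smul]; exact h3)
    obtain ⟨n, hn, hn2⟩ := C.exists_socle hne0
    have hfix3 : e ((C.Y ^ n) (D f)) = (C.Y ^ n) (D f) := by
      rw [C.comm_Ypow H.comm, hDfix f hf]
    obtain ⟨c, hc⟩ := fix_K_one H hfix3 hn2
    have hc0 : c ≠ 0 := by
      rintro rfl
      rw [zero_smul] at hc
      exact hn hc
    let t : α → ZMod p := c⁻¹ • (C.Y ^ n) f
    have het : e t = t := by
      change e (c⁻¹ • (C.Y ^ n) f) = c⁻¹ • (C.Y ^ n) f
      rw [map_smul, C.comm_Ypow H.comm, hf]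
    have hDt : D t = 1 := by
      change D (c⁻¹ • (C.Y ^ n) f) = 1
      rw [map_smul, C.comm_Ypow hD, hc, smul_smul, inv_mul_cancel₀ hc0, one_smul]
    have hYt1 : D (C.Y t) = 0 := by
      rw [C.comm_Y hD, hDt]
      have h3 := one_mem_KK (p := p) C.σ
      rw [mem_KK, pow_one] at h3
      exact h3
    have heYt : e (C.Y t) = C.Y t := by
      rw [C.comm_Y H.comm, het]
    obtain ⟨c₁, hc₁⟩ := hNc _ heYt hYt1
    have hc₁0 : c₁ ≠ 0 := by
      rintro rfl
      rw [zero_smul] at hc₁
      have h3 : t ∈ C.K 1 := by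
        rw [mem_KK, pow_one]
        exact hc₁
      obtain ⟨c₂, hc₂⟩ := fix_K_one H het h3
      rw [hc₂, map_smul, hD1, smul_zero] at hDt
      exact C.one_ne hDt.symm
    refine C.no_affine hc₁0 hc₁ (fun g => ?_)
    have h3 : e (rho p g⁻¹ t - t) = rho p g⁻¹ t - t := by
      rw [map_sub, H.comm, het]
    have h4 : D (rho p g⁻¹ t - t) = 0 := by
      rw [map_sub, hD, hDt, rho_const_one, sub_self]
    obtain ⟨c₂, hc₂⟩ := hNc _ h3 h4
    refine ⟨1, c₂, fun ω => ?_⟩
    have h5 := congrFun hc₂ ω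
    simp only [Pi.sub_apply, rho_apply, inv_inv, Pi.smul_apply, smul_eq_mul, Pi.one_apply,
      mul_one] at h5
    linear_combination h5
  · rcases le_total (finrank (ZMod p) I) (finrank (ZMod p) N) with h3 | h3
    · exact no_invariant H hIe hIG hu2 (by omega)
    · exact no_invariant H hNe hNG (by omega) (by omega)

/-- The defect is a multiple of the top power of the difference operator. -/
theorem defect_top : ∃ l : ZMod p, ∀ f, e f = f → A f - k • f = l • (C.Y ^ (p - 1)) f := by
  let D : Module.End (ZMod p) (α → ZMod p) := A - k • 1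
  have hD : Comm G D := hA.sub (Comm.one.smul k)
  have happ : ∀ f, D f = A f - k • f := fun f => rfl
  let I : Submodule (ZMod p) (α → ZMod p) := (LinearMap.range e).map D
  let N : Submodule (ZMod p) (α → ZMod p) := LinearMap.range e ⊓ LinearMap.ker D
  have hRG : GInv G (LinearMap.range e) := by
    rintro g _ ⟨f, rfl⟩
    exact ⟨rho p g f, H.comm g f⟩
  have hNG : GInv G N := hRG.inf hD.ginv_ker
  have hrank : finrank (ZMod p) I + finrank (ZMod p) N = p := by
    have h2 := finrank_map_add_inf_ker D (LinearMap.range e)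
    rw [finrank_range H] at h2
    exact h2
  have hI : finrank (ZMod p) I ≤ 1 := by
    have h2 : I ≤ Submodule.span (ZMod p) {(1 : α → ZMod p)} := by
      rintro _ ⟨f, hf, rfl⟩
      obtain ⟨c, hc⟩ := defect_const H hA h1 ((mem_range H).mp hf)
      rw [happ, hc]
      exact Submodule.smul_mem _ _ (Submodule.mem_span_singleton_self _)
    exact le_trans (Submodule.finrank_mono h2) (finrank_span_singleton C.one_ne).le
  have hM : ∀ f, e f = f → f ∈ C.K (p - 1) → D f = 0 := by
    intro f hf hf2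
    have hfR : f ∈ LinearMap.range e := (mem_range H).mpr hf
    by_cases hv : finrank (ZMod p) N = p
    · have h3 : N = LinearMap.range e := by
        apply Submodule.eq_of_le_of_finrank_le inf_le_left
        rw [finrank_range H, hv]
      rw [← h3] at hfR
      exact hfR.2
    · have hv' : finrank (ZMod p) N = p - 1 := by omega
      have hNK : N ≤ C.K (p - 1) := by
        have h3 := C.nil_le (S := N) fun f hf => C.ginv_Y hNG hf
        rwa [hv'] at h3
      have h3 : N = LinearMap.range e ⊓ C.K (p - 1) := by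
        apply Submodule.eq_of_le_of_finrank_le (le_inf inf_le_left hNK)
        rw [hv']
        exact finrank_range_K H _
      have h4 : f ∈ N := by
        rw [h3]
        exact ⟨hfR, hf2⟩
      exact h4.2
  obtain ⟨t₀, ht₀, ht₀2⟩ : ∃ t₀, e t₀ = t₀ ∧ (C.Y ^ (p - 1)) t₀ ≠ 0 := by
    by_contra hcon
    push Not at hcon
    have h3 : LinearMap.range e ≤ LinearMap.range e ⊓ C.K (p - 1) := by
      intro f hf
      exact ⟨hf, (mem_KK _).mpr (hcon f ((mem_range H).mp hf))⟩
    have h4 := Submodule.finrank_mono h3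
    have h5 := finrank_range_K H (p - 1)
    rw [finrank_range H] at h4
    have := hp.out.pos
    omega
  have hfixtop : ∀ f, e f = f → e ((C.Y ^ (p - 1)) f) = (C.Y ^ (p - 1)) f := by
    intro f hf
    rw [C.comm_Ypow H.comm, hf]
  obtain ⟨c₀, hc₀⟩ := fix_K_one H (hfixtop t₀ ht₀) (C.top_mem t₀)
  have hc₀0 : c₀ ≠ 0 := by
    rintro rfl
    rw [zero_smul] at hc₀
    exact ht₀2 hc₀
  obtain ⟨μ, hμ⟩ := defect_const H hA h1 ht₀
  refine ⟨μ / c₀, fun f hf => ?_⟩
  obtain ⟨c, hc⟩ := fix_K_one H (hfixtop f hf) (C.top_mem f)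
  have h3 : e (f - (c / c₀) • t₀) = f - (c / c₀) • t₀ := by
    rw [map_sub, map_smul, hf, ht₀]
  have h4 : f - (c / c₀) • t₀ ∈ C.K (p - 1) := by
    rw [mem_KK, map_sub, map_smul, hc, hc₀, smul_smul, div_mul_cancel₀ _ hc₀0, sub_self]
  have h5 := hM _ h3 h4
  rw [map_sub, map_smul, happ f, happ t₀, hμ, sub_eq_zero] at h5
  rw [h5, hc, smul_smul, smul_smul]
  congr 1
  field_simp

include hw

/-- The form of an operator. -/
theorem op_form : ∃ l : ZMod p, ∀ f, A f = k • e f + l • (C.Y ^ (p - 1)) (e f) + a • (f - e f) := by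
  obtain ⟨l, hl⟩ := defect_top H hA h1
  refine ⟨l, fun f => ?_⟩
  have h2 := hl (e f) (H.idem f)
  have h3 : e (f - e f) = 0 := by
    rw [map_sub, H.idem, sub_self]
  have h4 := scalar_ker H hA hw h3
  have h5 : A f = A (e f) + A (f - e f) := by
    rw [← map_add]
    congr 1
    abel
  rw [h5, h4, ← h2]
  abel

end Ctx

end Cfsg.Agent.Lib.Perm.TwoP
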