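import Mathlib
import Cfsg.Agent.Lib.Perm.TwoP.Prim

/-!
Construction of the idempotent from an operator separating the two eigenvalues.
-/

set_option autoImplicit false

namespace Cfsg.Agent.Lib.Perm.TwoP

open MulAction Module

variable {G : Type*} [Group G] {α : Type*} [Fintype α] [DecidableEq α] [MulAction G α] {p : ℕ}

namespace Ctx

variable [hp : Fact p.Prime] {C : Ctx G α p}

omit [DecidableEq α] in
theorem pow_eigen {A : Module.End (ZMod p) (α → ZMod p)} {c : ZMod p} {v : α → ZMod p}
    (h : A v = c • v) (n : ℕ) : (A ^ n) v = c ^ n • v := by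
  induction n with
  | zero => simp
  | succ n ih =>
    rw [pow_succ, Module.End.mul_apply, h, map_smul, ih, smul_smul, pow_succ']

/-- The idempotent. -/
theorem exists_idem {A : Module.End (ZMod p) (α → ZMod p)} (hA : Comm G A) {k a : ZMod p}
    (h1 : A 1 = k • 1) (hw : A C.w = a • C.w) (hne : k ≠ a) : ∃ e, C.Idem e := by
  haveI : Nonempty α := ⟨C.a₀⟩
  haveI : CharP (Module.End (ZMod p) (α → ZMod p)) p := end_charP
  let u : Module.End (ZMod p) (α → ZMod p) := A - k • 1
  let v : Module.End (ZMod p) (α → ZMod p) := A - a • 1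
  have huapp : ∀ f, u f = A f - k • f := fun f => rfl
  have hvapp : ∀ f, v f = A f - a • f := fun f => rfl
  have hcommk : ∀ c : ZMod p, Commute A (c • (1 : Module.End (ZMod p) (α → ZMod p))) := fun c =>
    (Commute.one_right A).smul_right c
  have huv : Commute u v := by
    apply Commute.sub_left
    · exact Commute.sub_right (Commute.refl A) (hcommk a)
    · exact Commute.sub_right (hcommk k).symm
        ((Commute.one_right _).smul_right a |>.smul_left k)
  let C₀ : Module.End (ZMod p) (α → ZMod p) := u * v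
  have hu : Comm G u := hA.sub (Comm.one.smul k)
  have hv : Comm G v := hA.sub (Comm.one.smul a)
  have hC₀ : Comm G C₀ := hu.mul hv
  have hu1 : u 1 = 0 := by rw [huapp, h1, sub_self]
  have hvw : v C.w = 0 := by rw [hvapp, hw, sub_self]
  have hker : ∀ f ∈ C.K 1, C₀ f = 0 := by
    intro f hf
    obtain ⟨c, c', rfl⟩ := C.K_one_eq hf
    have h2 : C₀ 1 = 0 := by
      have h3 : C₀ = v * u := huv.eq
      rw [h3, Module.End.mul_apply, hu1, map_zero]
    have h3 : C₀ C.w = 0 := by
      change u (v C.w) = 0
      rw [hvw, map_zero]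
    rw [map_add, map_smul, map_smul, h2, h3, smul_zero, smul_zero, add_zero]
  have hpow : ∀ m, ∀ f ∈ C.K m, (C₀ ^ m) f = 0 := by
    intro m
    induction m with
    | zero =>
      intro f hf
      rw [(mem_KK_zero _).mp hf, map_zero]
    | succ m ih =>
      intro f hf
      have h2 := ih _ ((mem_KK_succ _).mp hf)
      have h3 : C.Y ((C₀ ^ m) f) = 0 := by
        have h4 := C.comm_Y (hC₀.pow m) f
        rw [← h4, h2]
      have h4 : (C₀ ^ m) f ∈ C.K 1 := by
        rw [mem_KK, pow_one]
        exact h3
      rw [pow_succ', Module.End.mul_apply, hker _ h4]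
  have hC₀p : C₀ ^ p = 0 := by
    apply LinearMap.ext
    intro f
    have h2 : f ∈ C.K p := by
      rw [C.K_p]
      exact Submodule.mem_top
    rw [hpow p f h2]
    rfl
  let E : Module.End (ZMod p) (α → ZMod p) := A ^ p
  have hup : u ^ p = E - k • 1 := by
    change (A - k • 1) ^ p = A ^ p - k • 1
    rw [sub_pow_char_of_commute p (hcommk k), smul_pow, one_pow, ZMod.pow_card]
  have hvp : v ^ p = E - a • 1 := by
    change (A - a • 1) ^ p = A ^ p - a • 1
    rw [sub_pow_char_of_commute p (hcommk a), smul_pow, one_pow, ZMod.pow_card]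
  have hrel : (E - k • 1) * (E - a • 1) = 0 := by
    rw [← hup, ← hvp, ← huv.mul_pow]
    exact hC₀p
  have hsub : k - a ≠ 0 := sub_ne_zero.mpr hne
  let t : ZMod p := (k - a)⁻¹
  have ht : t * (k - a) = 1 := inv_mul_cancel₀ hsub
  let V : Module.End (ZMod p) (α → ZMod p) := E - a • 1
  have hVV : V * V = (k - a) • V := by
    have h2 : V = (E - k • 1) + (k - a) • 1 := by
      change E - a • 1 = (E - k • 1) + (k - a) • 1
      exact (by module)
    calc V * V = ((E - k • 1) + (k - a) • 1) * V := by rw [← h2]
      _ = (E - k • 1) * V + (k - a) • V := by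
        rw [add_mul, smul_mul_assoc, one_mul]
      _ = (k - a) • V := by
        have h3 : (E - k • 1) * V = 0 := hrel
        rw [h3, zero_add]
  have hE1 : E 1 = k • 1 := by
    have h2 : (A ^ p) 1 = k ^ p • (1 : α → ZMod p) := pow_eigen h1 p
    rw [ZMod.pow_card] at h2
    exact h2
  have hEw : E C.w = a • C.w := by
    have h2 : (A ^ p) C.w = a ^ p • C.w := pow_eigen hw p
    rw [ZMod.pow_card] at h2
    exact h2
  have hEcomm : Comm G E := hA.pow p
  refine ⟨t • V, ?_, ?_, ?_, ?_⟩
  · intro f
    have h2 : (t • V) * (t • V) = t • V := by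
      rw [smul_mul_smul_comm, hVV, smul_smul, mul_assoc, ht, mul_one]
    have h3 := congrArg (fun T : Module.End (ZMod p) (α → ZMod p) => T f) h2
    exact h3
  · change t • (E 1 - a • 1) = 1
    rw [hE1, ← sub_smul, smul_smul, ht, one_smul]
  · change t • (E C.w - a • C.w) = 0
    rw [hEw, sub_self, smul_zero]
  · exact (hEcomm.sub (Comm.one.smul a)).smul t

end Ctx

end Cfsg.Agent.Lib.Perm.TwoP
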