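import Mathlib

/-!
Multiplicity of an eigenvalue of a matrix with a quadratic relation, computed as a trace of an idempotent.
-/

set_option autoImplicit false

namespace Cfsg.Agent.Lib.Perm.TwoP

open Module

variable {Ω : Type*} [Fintype Ω] [DecidableEq Ω]

/-- The multiplicity of the eigenvalue `a` of a matrix `M` in a rank three relation. -/
theorem mult_lemma (M : Matrix Ω Ω ℂ) (k Λ Μ a b : ℤ) (n : ℕ) (hn : 0 < n)
    (hcard : Fintype.card Ω = n)
    (hMM : ∀ x y, (M * M) x y = (k : ℂ) * (if x = y then 1 else 0) + (Λ : ℂ) * M x y +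
      (Μ : ℂ) * (1 - (if x = y then 1 else 0) - M x y))
    (hrow : ∀ x, ∑ y, M x y = (k : ℂ)) (hcol : ∀ y, ∑ x, M x y = (k : ℂ))
    (hdiag : ∀ x, M x x = 0)
    {w : Ω → ℂ} (hw0 : w ≠ 0) (hwM : ∀ x, ∑ y, M x y * w y = (a : ℂ) * w x) (hws : ∑ x, w x = 0)
    (hne : a ≠ b) (hb : b = Λ - Μ - a) (hab : a * b = Μ - k)
    (hkk : (k - a) * (k - b) = (n : ℤ) * Μ) [Nonempty Ω] :
    ∃ m : ℕ, 0 < m ∧ m < n ∧ (m : ℤ) * (a - b) = - (n : ℤ) * b - (k - b) := by
  have hnC : (n : ℂ) ≠ 0 := by exact_mod_cast hn.ne'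
  have hneC : (a : ℂ) - (b : ℂ) ≠ 0 := by
    rw [sub_ne_zero]
    exact_mod_cast hne
  let J : Matrix Ω Ω ℂ := Matrix.of fun _ _ => 1
  let c : ℂ := ((k : ℂ) - b) / n
  have hc : (n : ℂ) * c = (k : ℂ) - b := by
    simp only [c]
    field_simp
  have hMM' : M * M = (k : ℂ) • 1 + (Λ : ℂ) • M + (Μ : ℂ) • (J - 1 - M) := by
    ext x y
    rw [hMM]
    simp [J, Matrix.one_apply]
  have hMJ : M * J = (k : ℂ) • J := by
    ext x y
    simp [J, Matrix.mul_apply, hrow]
  have hJM : J * M = (k : ℂ) • J := by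
    ext x y
    simp [J, Matrix.mul_apply, hcol]
  have hJJ : J * J = (n : ℂ) • J := by
    ext x y
    simp [J, Matrix.mul_apply, hcard]
  let N : Matrix Ω Ω ℂ := M - (b : ℂ) • 1 - c • J
  have hbC : (b : ℂ) = (Λ : ℂ) - Μ - a := by exact_mod_cast hb
  have habC : (a : ℂ) * b = (Μ : ℂ) - k := by exact_mod_cast hab
  have hkkC : ((k : ℂ) - a) * ((k : ℂ) - b) = (n : ℂ) * Μ := by exact_mod_cast hkk
  have hMc : (Μ : ℂ) = c * ((k : ℂ) - a) := by
    apply mul_left_cancel₀ hnC
    rw [← hkkC, ← hc]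
    ring
  have hNN : N * N = ((a : ℂ) - b) • N := by
    have hexp : N * N = ((k : ℂ) - Μ + (b : ℂ) ^ 2) • (1 : Matrix Ω Ω ℂ) +
        ((Λ : ℂ) - Μ - 2 * b) • M + ((Μ : ℂ) + n * c ^ 2 - 2 * c * k + 2 * b * c) • J := by
      simp only [N, sub_mul, mul_sub, smul_mul_assoc, mul_smul_comm, one_mul, mul_one, hMM', hMJ, hJM,
        hJJ]
      exact (by module)
    rw [hexp]
    have h1 : (k : ℂ) - Μ + (b : ℂ) ^ 2 = -(((a : ℂ) - b) * b) := by
      linear_combination habC
    have h2 : (Λ : ℂ) - Μ - 2 * b = (a : ℂ) - b := by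
      linear_combination -hbC
    have h3 : (Μ : ℂ) + n * c ^ 2 - 2 * c * k + 2 * b * c = -(((a : ℂ) - b) * c) := by
      linear_combination hMc + c * hc
    rw [h1, h2, h3]
    simp only [N]
    exact (by module)
  let P : Matrix Ω Ω ℂ := ((a : ℂ) - b)⁻¹ • N
  have hPP : P * P = P := by
    simp only [P]
    rw [smul_mul_smul_comm, hNN, smul_smul, mul_assoc, inv_mul_cancel₀ hneC, mul_one]
  let T : Module.End ℂ (Ω → ℂ) := Matrix.toLin' P
  have hT : ∀ f, T (T f) = T f := by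
    intro f
    rw [← Module.End.mul_apply]
    have h1 : T * T = T := by
      change Matrix.toLin' P * Matrix.toLin' P = Matrix.toLin' P
      rw [Module.End.mul_eq_comp, ← Matrix.toLin'_mul, hPP]
    rw [h1]
  have hproj : LinearMap.IsProj (LinearMap.range T) T :=
    ⟨fun x => ⟨x, rfl⟩, by
      rintro _ ⟨y, rfl⟩
      exact hT y⟩
  have htr := hproj.trace
  have htr2 : LinearMap.trace ℂ (Ω → ℂ) T = Matrix.trace P := Matrix.trace_toLin'_eq P
  have htrM : Matrix.trace M = 0 := by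
    simp [Matrix.trace, hdiag]
  have htr1 : Matrix.trace (1 : Matrix Ω Ω ℂ) = (n : ℂ) := by
    simp [Matrix.trace, hcard]
  have htrJ : Matrix.trace J = (n : ℂ) := by
    simp [Matrix.trace, J, hcard]
  have htrP : Matrix.trace P = ((a : ℂ) - b)⁻¹ * (-(b : ℂ) * n - c * n) := by
    simp only [P, N]
    rw [Matrix.trace_smul, Matrix.trace_sub, Matrix.trace_sub, Matrix.trace_smul, Matrix.trace_smul,
      htrM, htr1, htrJ, smul_eq_mul, smul_eq_mul, smul_eq_mul]
    ring
  have hJw : J.mulVec w = 0 := by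
    funext x
    simp [J, Matrix.mulVec, dotProduct, hws]
  have hMw : M.mulVec w = (a : ℂ) • w := by
    funext x
    simp only [Matrix.mulVec, dotProduct, Pi.smul_apply, smul_eq_mul]
    exact hwM x
  have hTw : T w = w := by
    change P.mulVec w = w
    simp only [P, N]
    rw [Matrix.smul_mulVec, Matrix.sub_mulVec, Matrix.sub_mulVec, Matrix.smul_mulVec,
      Matrix.smul_mulVec, Matrix.one_mulVec, hJw, hMw, smul_zero, sub_zero, ← sub_smul, smul_smul,
      inv_mul_cancel₀ hneC, one_smul]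
  have hT1 : T (fun _ => 1) = 0 := by
    change P.mulVec (fun _ => 1) = 0
    have h1 : M.mulVec (fun _ => (1 : ℂ)) = (k : ℂ) • (fun _ => (1 : ℂ)) := by
      funext x
      simp [Matrix.mulVec, dotProduct, hrow]
    have h2 : J.mulVec (fun _ => (1 : ℂ)) = (n : ℂ) • (fun _ => (1 : ℂ)) := by
      funext x
      simp [J, Matrix.mulVec, dotProduct, hcard]
    simp only [P, N]
    rw [Matrix.smul_mulVec, Matrix.sub_mulVec, Matrix.sub_mulVec, Matrix.smul_mulVec,
      Matrix.smul_mulVec, Matrix.one_mulVec, h1, h2, smul_smul, ← sub_smul, ← sub_smul]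
    have h3 : (k : ℂ) - b - c * n = 0 := by
      linear_combination -hc
    rw [h3, zero_smul, smul_zero]
  refine ⟨finrank ℂ (LinearMap.range T), ?_, ?_, ?_⟩
  · apply Nat.pos_of_ne_zero
    intro h0
    have h1 := Submodule.finrank_eq_zero.mp h0
    have h2 : w ∈ LinearMap.range T := ⟨w, hTw⟩
    rw [h1] at h2
    exact hw0 ((Submodule.mem_bot _).mp h2)
  · have h1 : LinearMap.range T ≠ ⊤ := by
      intro h2
      have h3 : (fun _ => (1 : ℂ)) ∈ LinearMap.range T := by
        rw [h2]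
        exact Submodule.mem_top
      obtain ⟨y, hy⟩ := h3
      have h4 := hT y
      rw [hy, hT1] at h4
      obtain ⟨x⟩ := ‹Nonempty Ω›
      have h5 := congrFun h4 x
      exact zero_ne_one h5
    have h2 := Submodule.finrank_lt h1
    rwa [Module.finrank_fintype_fun_eq_card, hcard] at h2
  · have h1 : (finrank ℂ (LinearMap.range T) : ℂ) = ((a : ℂ) - b)⁻¹ * (-(b : ℂ) * n - c * n) := by
      rw [← htr, htr2, htrP]
    have h2 : ((finrank ℂ (LinearMap.range T) : ℕ) : ℂ) * ((a : ℂ) - b) = -(n : ℂ) * b - ((k : ℂ) - b) := by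
      rw [h1, mul_comm, ← mul_assoc, mul_inv_cancel₀ hneC, one_mul]
      linear_combination -hc
    exact_mod_cast h2

end Cfsg.Agent.Lib.Perm.TwoP
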