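import Mathlib
import Cfsg.Agent.Lib.Perm.Wielandt
import Cfsg.Agent.Lib.Perm.TwoP.Idem

/-!
Orbital operators modulo `p`: the constant function and the sign function are eigenvectors, and the
eigenvalues differ; hence the rank is at most three.
-/

set_option autoImplicit false

namespace Cfsg.Agent.Lib.Perm.TwoP

open MulAction Module
open Cfsg.Agent.Lib.Perm.CentRing (Orb orb_smul orbZ orbC orbC_apply sum_row sum_col)
open Cfsg.Agent.Lib.Perm.Wielandt (subdeg subdeg_eq_of_mem)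

universe u v

variable {G : Type u} [Group G] {α : Type v} [Fintype α] [DecidableEq α] [MulAction G α] {p : ℕ}

namespace Ctx

variable [hp : Fact p.Prime] (C : Ctx G α p)

/-- The integer orbital matrix at the base point. -/
noncomputable abbrev MZ (b : α) : Matrix α α ℤ := orbZ G C.a₀ b

open Classical in
omit [DecidableEq α] hp in
theorem MZ_apply (b x y : α) : C.MZ b x y = if Orb G C.a₀ b x y then 1 else 0 := rfl

omit [DecidableEq α] hp in
theorem MZ_smul (g : G) (b x y : α) : C.MZ b (g • x) (g • y) = C.MZ b x y := by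
  classical
  rw [MZ_apply, MZ_apply]
  simp only [orb_smul]

omit [DecidableEq α] hp in
theorem MZ_nonneg (b x y : α) : 0 ≤ C.MZ b x y := by
  classical
  rw [MZ_apply]
  split_ifs <;> norm_num

omit [DecidableEq α] hp in
theorem MZ_le_one (b x y : α) : C.MZ b x y ≤ 1 := by
  classical
  rw [MZ_apply]
  split_ifs <;> norm_num

omit [DecidableEq α] hp in
theorem MZ_add_le (b b' x y : α) (h : b' ∉ orbit (stabilizer G C.a₀) b) :
    C.MZ b x y + C.MZ b' x y ≤ 1 := by
  classical
  rw [MZ_apply, MZ_apply]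
  by_cases h1 : Orb G C.a₀ b x y
  · by_cases h2 : Orb G C.a₀ b' x y
    · exfalso
      obtain ⟨g, hg1, hg2⟩ := h1
      obtain ⟨g', hg3, hg4⟩ := h2
      apply h
      have h3 : g⁻¹ * g' ∈ stabilizer G C.a₀ := by
        change (g⁻¹ * g') • C.a₀ = C.a₀
        rw [mul_smul, hg3, ← hg1, inv_smul_smul]
      refine ⟨⟨(g⁻¹ * g')⁻¹, inv_mem h3⟩, ?_⟩
      change (g⁻¹ * g')⁻¹ • b = b'
      rw [mul_inv_rev, inv_inv, mul_smul, hg2, ← hg4, inv_smul_smul]
    · simp [h1, h2]
  · split_ifs <;> simp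

section Fin

variable [Fintype G]

omit [DecidableEq α] hp in
theorem row_sum (b x : α) : ∑ y, C.MZ b x y = (subdeg G C.a₀ b : ℤ) := by
  haveI := C.prim.toIsPretransitive
  have h := sum_row (G := G) C.a₀ b x
  simp only [orbC, Matrix.map_apply, Int.coe_castRingHom] at h
  exact_mod_cast h

omit [DecidableEq α] in
theorem col_sum (b y : α) : ∑ x, C.MZ b x y = (subdeg G C.a₀ b : ℤ) := by
  haveI := C.prim.toIsPretransitive
  have hcol : ∀ z, ∑ x, C.MZ b x z = ∑ x, C.MZ b x y := by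
    intro z
    have h := sum_col (G := G) C.a₀ b z y
    simp only [orbC, Matrix.map_apply, Int.coe_castRingHom] at h
    exact_mod_cast h
  have h1 : ∑ x, ∑ z, C.MZ b x z = ∑ z, ∑ x, C.MZ b x z := Finset.sum_comm
  simp only [row_sum, hcol, Finset.sum_const, Finset.card_univ, nsmul_eq_mul] at h1
  have hne : ((Fintype.card α : ℕ) : ℤ) ≠ 0 := by
    rw [C.card]
    have := hp.out.pos
    positivity
  exact (mul_left_cancel₀ hne h1).symm

/-- The number of neighbours in the orbit of the base point. -/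
noncomputable def cnt (b ω : α) : ℤ := ∑ y ∈ C.Δ, C.MZ b ω y

omit [Fintype G] in
theorem cnt_smul (b ω : α) : C.cnt b (C.x • ω) = C.cnt b ω := by
  unfold cnt
  symm
  apply Finset.sum_equiv (MulAction.toPerm C.x)
  · intro y
    simp [smul_mem_Δ]
  · intro y _
    simp only [toPerm_apply]
    exact (C.MZ_smul C.x b ω y).symm

omit [Fintype G] in
theorem cnt_pow (b ω : α) (i : ℕ) : C.cnt b ((C.x ^ i) • ω) = C.cnt b ω := by
  induction i with
  | zero => simp
  | succ n ih =>
    rw [pow_succ', mul_smul, cnt_smul, ih]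

omit [Fintype G] in
theorem cnt_of_mem (b : α) {ω : α} (h : ω ∈ C.Δ) : C.cnt b ω = C.cnt b C.a₀ := by
  obtain ⟨i, _, rfl⟩ := C.mem_Δ.mp h
  exact C.cnt_pow b _ i

omit [Fintype G] in
theorem cnt_of_not (b : α) {ω : α} (h : ω ∉ C.Δ) : C.cnt b ω = C.cnt b C.b₀ := by
  obtain ⟨i, _, rfl⟩ := C.compl h
  exact C.cnt_pow b _ i

omit [Fintype G] hp in
theorem cnt_nonneg (b ω : α) : 0 ≤ C.cnt b ω := Finset.sum_nonneg fun _ _ => C.MZ_nonneg _ _ _

theorem card_compl_Δ : (C.Δᶜ).card = p := by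
  rw [Finset.card_compl, C.card, card_Δ]
  omega

/-- The count identity. -/
theorem cnt_add (b : α) : C.cnt b C.a₀ + C.cnt b C.b₀ = (subdeg G C.a₀ b : ℤ) := by
  have h1 : ∑ ω, C.cnt b ω = ∑ y ∈ C.Δ, ∑ ω, C.MZ b ω y := by
    unfold cnt
    exact Finset.sum_comm
  simp only [col_sum, Finset.sum_const, card_Δ, nsmul_eq_mul] at h1
  have h2 : ∑ ω, C.cnt b ω = (p : ℤ) * C.cnt b C.a₀ + (p : ℤ) * C.cnt b C.b₀ := by
    rw [← Finset.sum_add_sum_compl C.Δ]
    congr 1
    · rw [Finset.sum_congr rfl fun ω hω => C.cnt_of_mem b hω]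
      simp [card_Δ]
    · rw [Finset.sum_congr rfl fun ω hω => C.cnt_of_not b (Finset.mem_compl.mp hω)]
      simp [card_compl_Δ]
  rw [h2, ← mul_add] at h1
  have hne : (p : ℤ) ≠ 0 := by
    have := hp.out.pos
    positivity
  exact mul_left_cancel₀ hne h1

/-- The number of neighbours in the other orbit. -/
noncomputable def nn (b : α) : ℤ := C.cnt b C.b₀

/-- Action on the sign function. -/
theorem sign_sum (b ω : α) : ∑ y, C.MZ b ω y * C.wv ℤ y =
    ((subdeg G C.a₀ b : ℤ) - 2 * C.nn b) * C.wv ℤ ω := by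
  have h1 : ∑ y, C.MZ b ω y * C.wv ℤ y = 2 * C.cnt b ω - (subdeg G C.a₀ b : ℤ) := by
    rw [← C.row_sum b ω]
    have h2 : ∀ y, C.MZ b ω y * C.wv ℤ y =
        2 * (if y ∈ C.Δ then C.MZ b ω y else 0) - C.MZ b ω y := by
      intro y
      simp only [wv]
      split_ifs <;> ring
    simp only [h2, Finset.sum_sub_distrib, ← Finset.mul_sum]
    congr 2
    rw [cnt, Finset.sum_ite_mem, Finset.univ_inter]
  rw [h1]
  have h3 := C.cnt_add b
  unfold nn
  by_cases h : ω ∈ C.Δ
  · rw [C.cnt_of_mem b h]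
    simp only [wv, if_pos h]
    linear_combination 2 * h3
  · rw [C.cnt_of_not b h]
    simp only [wv, if_neg h]
    ring

/-- Primitivity forces edges between the two orbits. -/
theorem nn_pos {b : α} (hb : b ≠ C.a₀) : 0 < C.nn b := by
  classical
  haveI := C.prim.toIsPretransitive
  haveI := C.prim
  by_contra hcon
  have hn0 : C.cnt b C.b₀ = 0 := le_antisymm (not_lt.mp hcon) (C.cnt_nonneg _ _)
  have h3 := C.cnt_add b
  have hA : C.cnt b C.a₀ = (subdeg G C.a₀ b : ℤ) := by linarith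
  have hR : ∀ u v : α, Orb G C.a₀ b u v → (u ∈ C.Δ ↔ v ∈ C.Δ) := by
    intro u v huv
    have hM : C.MZ b u v = 1 := by
      rw [MZ_apply, if_pos huv]
    by_cases hu : u ∈ C.Δ
    · refine ⟨fun _ => ?_, fun _ => hu⟩
      by_contra hv
      have h4 : C.cnt b u = ∑ y, C.MZ b u y := by
        rw [C.cnt_of_mem b hu, hA, row_sum]
      have h5 : ∑ y ∈ C.Δᶜ, C.MZ b u y = 0 := by
        have h6 := Finset.sum_add_sum_compl C.Δ (fun y => C.MZ b u y)
        unfold cnt at h4
        linarith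
      have h7 := (Finset.sum_eq_zero_iff_of_nonneg fun y _ => C.MZ_nonneg b u y).mp h5 v
        (Finset.mem_compl.mpr hv)
      rw [hM] at h7
      exact one_ne_zero h7
    · refine ⟨fun h => absurd h hu, fun hv => ?_⟩
      exfalso
      have h4 : C.cnt b u = 0 := by
        rw [C.cnt_of_not b hu, hn0]
      have h7 := (Finset.sum_eq_zero_iff_of_nonneg fun y _ => C.MZ_nonneg b u y).mp h4 v hv
      rw [hM] at h7
      exact one_ne_zero h7
  let T : Subgroup G :=
    { carrier := {h | ∀ h' : G, (h' • C.a₀ ∈ C.Δ ↔ (h' * h) • C.a₀ ∈ C.Δ)}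
      mul_mem' := by
        intro h₁ h₂ h1 h2 h'
        rw [h1 h', h2 (h' * h₁), mul_assoc]
      one_mem' := by
        intro h'
        rw [mul_one]
      inv_mem' := by
        intro h h1 h'
        have h2 := h1 (h' * h⁻¹)
        rw [inv_mul_cancel_right] at h2
        exact h2.symm }
  have hTmem : ∀ h, h ∈ T ↔ ∀ h' : G, (h' • C.a₀ ∈ C.Δ ↔ (h' * h) • C.a₀ ∈ C.Δ) := fun _ => Iff.rfl
  obtain ⟨g₀, hg₀⟩ := MulAction.exists_smul_eq G C.a₀ b
  have hle : stabilizer G C.a₀ ≤ T := by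
    intro h hh h'
    have hh' : h • C.a₀ = C.a₀ := hh
    rw [mul_smul, hh']
  have hg₀T : g₀ ∈ T := by
    intro h'
    rw [mul_smul, hg₀]
    exact hR _ _ ⟨h', rfl, rfl⟩
  have hg₀S : g₀ ∉ stabilizer G C.a₀ := by
    intro h
    exact hb (hg₀.symm.trans h)
  haveI : Nontrivial α := ⟨⟨b, C.a₀, hb⟩⟩
  have hco := IsPreprimitive.isCoatom_stabilizer_of_isPreprimitive (G := G) C.a₀
  have hlt : stabilizer G C.a₀ < T := lt_of_le_of_ne hle (fun h => hg₀S (by rw [h]; exact hg₀T))
  have htop : T = ⊤ := hco.2 T hlt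
  obtain ⟨g₁, hg₁⟩ := MulAction.exists_smul_eq G C.a₀ C.b₀
  have h5 : g₁ ∈ T := by
    rw [htop]
    exact Subgroup.mem_top _
  have h6 := h5 1
  rw [one_smul, one_mul, hg₁] at h6
  exact C.b₀_not (h6.mp C.a₀_mem)

/-- Two different nontrivial orbitals have together at most `p` edges to the other orbit. -/
theorem nn_add_le {b b' : α} (h : b' ∉ orbit (stabilizer G C.a₀) b) : C.nn b + C.nn b' ≤ p := by
  unfold nn cnt
  rw [← Finset.sum_add_distrib]
  calc _ ≤ ∑ y ∈ C.Δ, (1 : ℤ) := Finset.sum_le_sum fun y _ => C.MZ_add_le b b' _ _ h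
    _ = p := by simp [card_Δ]

/-- The orbital operator modulo `p`. -/
noncomputable def opF (b : α) : Module.End (ZMod p) (α → ZMod p) :=
  Matrix.toLin' ((C.MZ b).map (Int.castRingHom (ZMod p)))

omit [Fintype G] in
theorem opF_apply (b : α) (f : α → ZMod p) (ω : α) :
    C.opF b f ω = ∑ y, ((C.MZ b ω y : ℤ) : ZMod p) * f y := rfl

omit [Fintype G] in
theorem opF_comm (b : α) : Comm G (C.opF b) := by
  intro g f
  funext ω
  rw [opF_apply, rho_apply, opF_apply]
  rw [← Equiv.sum_comp (MulAction.toPerm g) (fun y => ((C.MZ b ω y : ℤ) : ZMod p) * rho p g f y)]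
  refine Finset.sum_congr rfl fun y _ => ?_
  simp only [toPerm_apply, rho_apply, inv_smul_smul]
  congr 2
  have h := C.MZ_smul g b (g⁻¹ • ω) y
  rw [smul_inv_smul] at h
  exact h

omit [DecidableEq α] in
theorem row_sum_cast (b x : α) : ∑ y, ((C.MZ b x y : ℤ) : ZMod p) = ((subdeg G C.a₀ b : ℕ) : ZMod p) := by
  have h := congrArg (Int.cast : ℤ → ZMod p) (C.row_sum b x)
  push_cast at h
  exact h

theorem opF_one (b : α) : C.opF b 1 = ((subdeg G C.a₀ b : ℕ) : ZMod p) • 1 := by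
  funext ω
  rw [opF_apply]
  simp [row_sum_cast]

theorem w_cast (ω : α) : C.w ω = ((C.wv ℤ ω : ℤ) : ZMod p) := by
  simp only [w, wv]
  split_ifs <;> simp

theorem opF_w (b : α) : C.opF b C.w =
    (((subdeg G C.a₀ b : ℤ) - 2 * C.nn b : ℤ) : ZMod p) • C.w := by
  funext ω
  rw [opF_apply]
  have h := congrArg (Int.cast : ℤ → ZMod p) (C.sign_sum b ω)
  push_cast at h
  simp only [Pi.smul_apply, smul_eq_mul]
  simp only [w_cast]
  push_cast
  exact h

/-- Existence of the idempotent when the rank is at least three. -/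
theorem exists_idem_of_two {b b' : α} (hb : b ≠ C.a₀) (hb' : b' ≠ C.a₀)
    (h : b' ∉ orbit (stabilizer G C.a₀) b) : ∃ e, C.Idem e := by
  refine exists_idem (C.opF_comm b) (C.opF_one b) (C.opF_w b) ?_
  intro heq
  have h1 := C.nn_pos hb
  have h2 := C.nn_pos hb'
  have h3 := C.nn_add_le h
  have h4 : (((2 * C.nn b : ℤ)) : ZMod p) = 0 := by
    push_cast at heq ⊢
    linear_combination heq
  push_cast at h4
  have h5 : ((C.nn b : ℤ) : ZMod p) = 0 := by
    rcases mul_eq_zero.mp h4 with h6 | h6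
    · exact absurd h6 C.two_ne
    · exact h6
  rw [ZMod.intCast_zmod_eq_zero_iff_dvd] at h5
  have h6 := Int.le_of_dvd h1 h5
  omega

end Fin

end Ctx

end Cfsg.Agent.Lib.Perm.TwoP
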