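import Mathlib
import Cfsg.Agent.Lib.Perm.TwoP.Orb
import Cfsg.Agent.Lib.Perm.TwoP.Mult

/-!
The rank of a primitive group of degree `2p` containing a fixed-point-free element of order `p` which
is not doubly transitive equals three, and the subdegrees are determined.
-/

set_option autoImplicit false

namespace Cfsg.Agent.Lib.Perm.TwoP

open MulAction Module
open Cfsg.Agent.Lib.Perm.CentRing (Orb orb_smul orbZ orbC orbC_apply sum_row sum_col)
open Cfsg.Agent.Lib.Perm.Wielandt (subdeg subdeg_eq_of_mem rank_three_data swap_of_parity mat_relation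
  quad_of_eigenvector num_main stabilizer_normal_of_subdeg_one)

universe u v

variable {G : Type u} [Group G] {α : Type v} [Fintype α] [DecidableEq α] [MulAction G α] {p : ℕ}

namespace Ctx

variable [hp : Fact p.Prime] (C : Ctx G α p)

variable [Fintype G]

/-- The rank is at most three when the idempotent exists. -/
theorem rank_le {e : Module.End (ZMod p) (α → ZMod p)} (H : C.Idem e) :
    Nat.card (orbitRel.Quotient (stabilizer G C.a₀) α) ≤ 3 := by
  let Q := orbitRel.Quotient (stabilizer G C.a₀) α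
  letI : Fintype Q := Fintype.ofFinite Q
  let v : Q → Module.End (ZMod p) (α → ZMod p) := fun q => C.opF q.out
  let F : Finset (Module.End (ZMod p) (α → ZMod p)) := by
    classical
    exact {e, (C.Y ^ (p - 1)) * e, 1 - e}
  have hcardF : F.card ≤ 3 := by
    classical
    exact Finset.card_le_three
  have hF1 : e ∈ F := by
    classical
    simp [F]
  have hF2 : (C.Y ^ (p - 1)) * e ∈ F := by
    classical
    simp [F]
  have hF3 : 1 - e ∈ F := by
    classical
    simp [F]
  let W := Submodule.span (ZMod p) (F : Set (Module.End (ZMod p) (α → ZMod p)))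
  have hvW : ∀ q, v q ∈ W := by
    intro q
    obtain ⟨l, hl⟩ := op_form H (C.opF_comm q.out) (C.opF_one q.out) (C.opF_w q.out)
    have h1 : v q = ((subdeg G C.a₀ q.out : ℕ) : ZMod p) • e + l • ((C.Y ^ (p - 1)) * e) +
        (((subdeg G C.a₀ q.out : ℤ) - 2 * C.nn q.out : ℤ) : ZMod p) • (1 - e) := by
      apply LinearMap.ext
      intro f
      exact hl f
    rw [h1]
    exact W.add_mem (W.add_mem (W.smul_mem _ (Submodule.subset_span hF1))
      (W.smul_mem _ (Submodule.subset_span hF2))) (W.smul_mem _ (Submodule.subset_span hF3))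
  have hLI : LinearIndependent (ZMod p) v := by
    rw [Fintype.linearIndependent_iff]
    intro c hc q₀
    classical
    have h1 := congrFun (congrArg (fun T : Module.End (ZMod p) (α → ZMod p) =>
      T (Pi.single q₀.out 1)) hc) C.a₀
    have h2 : ∀ q : Q, v q (Pi.single q₀.out 1) C.a₀ = if q = q₀ then 1 else 0 := by
      intro q
      change C.opF q.out (Pi.single q₀.out 1) C.a₀ = _
      rw [opF_apply, Finset.sum_eq_single q₀.out]
      · rw [Pi.single_eq_same, mul_one]
        rw [MZ_apply]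
        by_cases hq : q = q₀
        · rw [if_pos hq, if_pos]
          · simp
          · rw [hq]
            exact ⟨1, one_smul _ _, one_smul _ _⟩
        · rw [if_neg hq, if_neg]
          · simp
          · rintro ⟨g, hg1, hg2⟩
            apply hq
            rw [← Quotient.out_eq' q, ← Quotient.out_eq' q₀]
            apply Quotient.sound'
            apply MulAction.orbitRel_apply.mpr
            refine ⟨⟨g⁻¹, inv_mem (show g ∈ stabilizer G C.a₀ from hg1)⟩, ?_⟩
            change g⁻¹ • q₀.out = q.out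
            rw [← hg2, inv_smul_smul]
      · intro y _ hy
        rw [Pi.single_eq_of_ne hy, mul_zero]
      · intro h
        exact absurd (Finset.mem_univ _) h
    simp only [LinearMap.sum_apply, LinearMap.smul_apply, Finset.sum_apply, Pi.smul_apply,
      LinearMap.zero_apply, Pi.zero_apply, smul_eq_mul, h2] at h1
    rw [Finset.sum_eq_single q₀ (fun y _ hy => by rw [if_neg hy, mul_zero])
      (fun h => absurd (Finset.mem_univ _) h), if_pos rfl, mul_one] at h1
    exact h1
  let v' : Q → W := fun q => ⟨v q, hvW q⟩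
  have hLI' : LinearIndependent (ZMod p) v' :=
    LinearIndependent.of_comp W.subtype hLI
  have h1 := hLI'.fintype_card_le_finrank
  have h2 : finrank (ZMod p) W ≤ F.card := finrank_span_finset_le_card F
  have h3 : Nat.card Q = Fintype.card Q := Nat.card_eq_fintype_card
  change Nat.card Q ≤ 3
  omega

/-- The final arithmetic in rank three. -/
theorem rank_three_main (hrank : Nat.card (orbitRel.Quotient (stabilizer G C.a₀) α) = 3) :
    ∃ a : ℕ, 0 < a ∧ p = 2 * a ^ 2 + 2 * a + 1 ∧ ∀ b : α, b ≠ C.a₀ →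
      Nat.card (orbit (stabilizer G C.a₀) b) = a * (2 * a + 1) ∨
        Nat.card (orbit (stabilizer G C.a₀) b) = (a + 1) * (2 * a + 1) := by
  haveI := C.prim.toIsPretransitive
  haveI : Nonempty α := ⟨C.a₀⟩
  have hppos := hp.out.pos
  have hprim := C.prim
  obtain ⟨b₁, b₂, hb₁, hb₂, hnot, hall, hsum⟩ := rank_three_data C.a₀ hrank
  obtain ⟨g₀, hg1, hg2⟩ := swap_of_parity C.card hb₁ hall hsum
  have hn₁pos : 0 < subdeg G C.a₀ b₁ := Nat.card_pos_iff.mpr ⟨⟨⟨_, mem_orbit_self _⟩⟩, inferInstance⟩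
  have hn₂pos : 0 < subdeg G C.a₀ b₂ := Nat.card_pos_iff.mpr ⟨⟨⟨_, mem_orbit_self _⟩⟩, inferInstance⟩
  have hsym : ∀ x y, orbC G C.a₀ b₁ x y = orbC G C.a₀ b₁ y x := by
    intro x y
    classical
    rw [orbC_apply, orbC_apply]
    congr 1
    apply propext
    constructor
    · rintro ⟨k, h3, h4⟩
      exact ⟨k * g₀, by rw [mul_smul, hg1, h4], by rw [mul_smul, hg2, h3]⟩
    · rintro ⟨k, h3, h4⟩
      exact ⟨k * g₀, by rw [mul_smul, hg1, h4], by rw [mul_smul, hg2, h3]⟩
  obtain ⟨Λ, Μ, hrel⟩ := mat_relation hb₁ hnot hall hsym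
  obtain ⟨M, hMdef⟩ : ∃ M, M = orbC G C.a₀ b₁ := ⟨_, rfl⟩
  rw [← hMdef] at hrel
  have hMZ : ∀ x y, M x y = ((C.MZ b₁ x y : ℤ) : ℂ) := by
    intro x y
    rw [hMdef]
    rfl
  obtain ⟨k, hk⟩ : ∃ k : ℤ, k = (subdeg G C.a₀ b₁ : ℤ) := ⟨_, rfl⟩
  have hkC : (subdeg G C.a₀ b₁ : ℂ) = (k : ℂ) := by
    rw [hk]
    push_cast
    rfl
  rw [hkC] at hrel
  obtain ⟨n, hn⟩ : ∃ n : ℤ, n = C.nn b₁ := ⟨_, rfl⟩
  obtain ⟨a, ha⟩ : ∃ a : ℤ, a = k - 2 * n := ⟨_, rfl⟩
  obtain ⟨wC, hwCdef⟩ : ∃ wC : α → ℂ, wC = C.wv ℂ := ⟨_, rfl⟩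
  have hwC : ∀ x, wC x = ((C.wv ℤ x : ℤ) : ℂ) := by
    intro x
    rw [hwCdef]
    simp only [wv]
    split_ifs <;> simp
  have hwM : ∀ x, ∑ y, M x y * wC y = (a : ℂ) * wC x := by
    intro x
    have h := congrArg (Int.cast : ℤ → ℂ) (C.sign_sum b₁ x)
    push_cast at h
    simp only [hMZ, hwC, ha, hn, hk]
    push_cast
    exact h
  have hws : ∑ x, wC x = 0 := by
    rw [← Finset.sum_add_sum_compl C.Δ]
    have h1 : ∑ x ∈ C.Δ, wC x = ∑ _x ∈ C.Δ, (1 : ℂ) := by
      refine Finset.sum_congr rfl fun x hx => ?_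
      rw [hwCdef]
      simp only [wv, if_pos hx]
    have h2 : ∑ x ∈ C.Δᶜ, wC x = ∑ _x ∈ C.Δᶜ, (-1 : ℂ) := by
      refine Finset.sum_congr rfl fun x hx => ?_
      rw [hwCdef]
      simp only [wv, if_neg (Finset.mem_compl.mp hx)]
    rw [h1, h2]
    simp [card_Δ, card_compl_Δ]
  have hw0 : wC ≠ 0 := by
    intro h
    have h1 := congrFun h C.a₀
    rw [hwCdef] at h1
    simp [wv, C.a₀_mem] at h1
  have hrow : ∀ x, ∑ y, M x y = (k : ℂ) := by
    intro x
    have h := congrArg (Int.cast : ℤ → ℂ) (C.row_sum b₁ x)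
    push_cast at h
    simp only [hMZ, hk]
    push_cast
    exact h
  have hcol : ∀ y, ∑ x, M x y = (k : ℂ) := by
    intro y
    have h := congrArg (Int.cast : ℤ → ℂ) (C.col_sum b₁ y)
    push_cast at h
    simp only [hMZ, hk]
    push_cast
    exact h
  have hdiag : ∀ x, M x x = 0 := by
    intro x
    classical
    rw [hMdef, orbC_apply, if_neg]
    rintro ⟨g, h1, h2⟩
    exact hb₁ (MulAction.injective g (h2.trans h1.symm))
  have hr : Matrix.toLin' M wC = (a : ℂ) • wC := by
    funext x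
    exact hwM x
  have Q1C := quad_of_eigenvector hrel hw0 hws hr
  have Q1 : a ^ 2 = k + Λ * a + Μ * (-1 - a) := by exact_mod_cast Q1C
  have Q2C : (k : ℂ) * k = k + Λ * k + Μ * ((2 * p : ℕ) - 1 - k) := by
    have h1 : ∑ y, (M * M) C.a₀ y = (k : ℂ) * k := by
      simp only [Matrix.mul_apply]
      rw [Finset.sum_comm]
      simp only [← Finset.mul_sum, hrow, ← Finset.sum_mul]
    rw [← h1]
    simp only [hrel, Finset.sum_add_distrib, ← Finset.mul_sum, hrow, Finset.sum_sub_distrib]
    simp [C.card]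
  have Q2 : k * k = k + Λ * k + Μ * (2 * (p : ℤ) - 1 - k) := by
    have h : ((k * k : ℤ) : ℂ) = ((k + Λ * k + Μ * (2 * (p : ℤ) - 1 - k) : ℤ) : ℂ) := by
      push_cast at Q2C ⊢
      exact Q2C
    exact_mod_cast h
  obtain ⟨b, hb⟩ : ∃ b : ℤ, b = Λ - Μ - a := ⟨_, rfl⟩
  have hab : a * b = Μ - k := by
    rw [hb]
    linear_combination -Q1
  have hkk : (k - a) * (k - b) = ((2 * p : ℕ) : ℤ) * Μ := by
    rw [hb]
    push_cast
    linear_combination Q2 - Q1
  have hn1 : 0 < n := by
    rw [hn]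
    exact C.nn_pos hb₁
  have hn2 := C.nn_pos hb₂
  have hn3 := C.nn_add_le hnot
  rw [← hn] at hn3
  have hnp : n < p := by omega
  have hpI : Prime (p : ℤ) := Nat.prime_iff_prime_int.mp hp.out
  have hpn : ¬ (p : ℤ) ∣ n := by
    intro h
    have := Int.le_of_dvd hn1 h
    omega
  have hp2 : ¬ (p : ℤ) ∣ 2 := by
    intro h
    have h1 : p ∣ 2 := by exact_mod_cast h
    exact C.odd ((Nat.prime_dvd_prime_iff_eq hp.out Nat.prime_two).mp h1)
  have hpkb : (p : ℤ) ∣ k - b := by
    have h1 : n * (k - b) = (p : ℤ) * Μ := by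
      have h2 : (2 : ℤ) * (n * (k - b)) = 2 * ((p : ℤ) * Μ) := by
        have h3 : k - a = 2 * n := by
          rw [ha]
          ring
        rw [h3] at hkk
        push_cast at hkk
        linear_combination hkk
      exact mul_left_cancel₀ (by norm_num) h2
    have h2 : (p : ℤ) ∣ n * (k - b) := ⟨Μ, h1⟩
    exact (hpI.dvd_or_dvd h2).resolve_left hpn
  have hpab : ¬ (p : ℤ) ∣ a - b := by
    intro h
    have h1 : (p : ℤ) ∣ 2 * n := by
      have h2 : 2 * n = (k - b) - (a - b) := by
        rw [ha]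
        ring
      rw [h2]
      exact dvd_sub hpkb h
    rcases hpI.dvd_or_dvd h1 with h2 | h2
    · exact hp2 h2
    · exact hpn h2
  have hne : a ≠ b := by
    rintro rfl
    exact hpab (by simp)
  obtain ⟨m, hm1, hm2, hm3⟩ := mult_lemma M k Λ Μ a b (2 * p) (by omega) C.card hrel hrow hcol hdiag hw0
    hwM hws hne hb hab hkk
  have hm : m = p := by
    have h1 : (p : ℤ) ∣ (m : ℤ) * (a - b) := by
      rw [hm3]
      push_cast
      have h2 : -(2 * (p : ℤ)) * b - (k - b) = (p : ℤ) * (-(2 * b)) - (k - b) := by ring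
      rw [h2]
      exact dvd_sub (dvd_mul_right _ _) hpkb
    have h2 : (p : ℤ) ∣ (m : ℤ) := (hpI.dvd_or_dvd h1).resolve_right hpab
    have h3 : p ∣ m := by exact_mod_cast h2
    obtain ⟨t, rfl⟩ := h3
    have ht : t = 1 := by
      have h4 : t < 2 := by
        by_contra h5
        push Not at h5
        have : p * 2 ≤ p * t := Nat.mul_le_mul_left p h5
        omega
      have h6 : t ≠ 0 := by
        rintro rfl
        simp at hm1
      omega
    rw [ht, mul_one]
  subst hm
  have E1 : k + ((m : ℤ) - 1) * b + (m : ℤ) * a = 0 := by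
    push_cast at hm3
    linear_combination hm3
  have E2 : k ^ 2 + ((m : ℤ) - 1) * b ^ 2 + (m : ℤ) * a ^ 2 = 2 * (m : ℤ) * k := by
    subst hb
    linear_combination (a + (Λ - Μ - a)) * E1 - (2 * (m : ℤ) - 1) * hab + Q2
  have hkpos : 0 < k := by
    rw [hk]
    exact_mod_cast hn₁pos
  have hsumZ : (2 * (m : ℤ)) = 1 + k + (subdeg G C.a₀ b₂ : ℤ) := by
    rw [hk]
    have h1 := hsum
    rw [C.card] at h1
    exact_mod_cast h1
  have hnum := num_main (m : ℤ) k b a (by omega) hkpos (by
    have : (0 : ℤ) < (subdeg G C.a₀ b₂ : ℤ) := by exact_mod_cast hn₂pos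
    omega) E1 E2
  have hsumN : 2 * m = 1 + subdeg G C.a₀ b₁ + subdeg G C.a₀ b₂ := by
    have h1 := hsum
    rwa [C.card] at h1
  rcases hnum with h | h | ⟨c, hc, hma, hna⟩
  · exfalso
    have h3 : subdeg G C.a₀ b₁ = 1 := by
      rw [hk] at h
      exact_mod_cast h
    have h4 := stabilizer_normal_of_subdeg_one hprim hb₁ h3 b₂
    have := hp.out.one_lt
    omega
  · exfalso
    have h3 : subdeg G C.a₀ b₂ = 1 := by
      rw [hk] at h
      omega
    have h4 := stabilizer_normal_of_subdeg_one hprim hb₂ h3 b₁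
    have := hp.out.one_lt
    omega
  · lift c to ℕ using hc
    have hma' : m = 2 * c ^ 2 + 2 * c + 1 := by exact_mod_cast hma
    refine ⟨c, ?_, hma', ?_⟩
    · rcases Nat.eq_zero_or_pos c with h0 | h0
      · subst h0
        have := hp.out.one_lt
        simp at hma'
        omega
      · exact h0
    · intro y hy
      have hval : subdeg G C.a₀ y = subdeg G C.a₀ b₁ ∨ subdeg G C.a₀ y = subdeg G C.a₀ b₂ := by
        rcases hall y hy with h | h
        · exact Or.inl (subdeg_eq_of_mem h)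
        · exact Or.inr (subdeg_eq_of_mem h)
      change subdeg G C.a₀ y = _ ∨ subdeg G C.a₀ y = _
      rcases hna with h5 | h5
      · have h6 : subdeg G C.a₀ b₁ = (c + 1) * (2 * c + 1) := by
          rw [hk] at h5
          exact_mod_cast h5
        have h7 : subdeg G C.a₀ b₂ = c * (2 * c + 1) := by
          have h9 : 2 * (2 * c ^ 2 + 2 * c + 1) = 1 + (c + 1) * (2 * c + 1) + subdeg G C.a₀ b₂ := by
            rw [← hma', ← h6]
            exact hsumN
          exact Nat.add_left_cancel (n := 1 + (c + 1) * (2 * c + 1)) (by rw [← h9]; ring)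
        rcases hval with h8 | h8
        · right; rw [h8, h6]
        · left; rw [h8, h7]
      · have h6 : subdeg G C.a₀ b₁ = c * (2 * c + 1) := by
          rw [hk] at h5
          exact_mod_cast h5
        have h7 : subdeg G C.a₀ b₂ = (c + 1) * (2 * c + 1) := by
          have h9 : 2 * (2 * c ^ 2 + 2 * c + 1) = 1 + c * (2 * c + 1) + subdeg G C.a₀ b₂ := by
            rw [← hma', ← h6]
            exact hsumN
          exact Nat.add_left_cancel (n := 1 + c * (2 * c + 1)) (by rw [← h9]; ring)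
        rcases hval with h8 | h8
        · left; rw [h8, h6]
        · right; rw [h8, h7]

end Ctx

end Cfsg.Agent.Lib.Perm.TwoP
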